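import Mathlib
import Cfsg.Agent.Suz2.Homo

/-! 2-groups with an operator group transitive on the involutions: basic facts. -/

set_option autoImplicit false

namespace Cfsg.Agent.Suz3

open Cfsg.Agent.Suz2 (KInv act_eq_one_iff exists_inv_mem cm HC Good)

/-- A finite 2-group with an operator group transitive on the involutions (at least two). -/
structure ST (P K : Type*) [Group P] [Group K] [MulDistribMulAction K P] : Prop where
  fin : Finite P
  p2 : IsPGroup 2 P
  trans : ∀ x y : P, x ≠ 1 → x * x = 1 → y ≠ 1 → y * y = 1 → ∃ k : K, k • x = y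
  two : ∃ x y : P, x ≠ y ∧ x ≠ 1 ∧ x * x = 1 ∧ y ≠ 1 ∧ y * y = 1

variable {P K : Type*} [Group P] [Group K] [MulDistribMulAction K P]

namespace ST

variable (h : ST P K)

include h

theorem central {z : P} (hz : z * z = 1) (x : P) : z * x = x * z := by
  have hf := h.fin
  have hf2 : Fact (2 : ℕ).Prime := ⟨Nat.prime_two⟩
  rcases eq_or_ne z 1 with rfl | hz1
  · rw [one_mul, mul_one]
  have hnt : Nontrivial P := ⟨z, 1, hz1⟩
  have hc : Subgroup.center P ≠ ⊥ := by
    have := h.p2.center_nontrivial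
    exact (Subgroup.nontrivial_iff_ne_bot _).1 this
  obtain ⟨w, hw, hw1, hw2⟩ := exists_inv_mem h.fin h.p2 hc
  obtain ⟨k, hk⟩ := h.trans w z hw1 hw2 hz1 hz
  have hk' : k • w = z := hk
  rw [Subgroup.mem_center_iff] at hw
  have h1 := hw (k⁻¹ • x)
  have h2 := congrArg (fun y => k • y) h1
  simp only [smul_mul', smul_inv_smul, hk'] at h2
  exact h2.symm

/-- The subgroup of elements with `x² = 1`. -/
def E : Subgroup P where
  carrier := {x | x * x = 1}
  mul_mem' := by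
    intro a b ha hb
    show a * b * (a * b) = 1
    have ha' : a * a = 1 := ha
    have hb' : b * b = 1 := hb
    rw [mul_assoc, ← mul_assoc b, h.central hb' a, mul_assoc a, hb', mul_one, ha']
  one_mem' := by show (1 : P) * 1 = 1; rw [mul_one]
  inv_mem' := by
    intro a ha
    show a⁻¹ * a⁻¹ = 1
    have ha' : a * a = 1 := ha
    rw [← mul_inv_rev, ha', inv_one]

theorem mem_E {x : P} : x ∈ h.E ↔ x * x = 1 := Iff.rfl

theorem E_comm {z : P} (hz : z ∈ h.E) (x : P) : z * x = x * z := h.central (h.mem_E.1 hz) x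

theorem E_inv {z : P} (hz : z ∈ h.E) : z⁻¹ = z := inv_eq_of_mul_eq_one_left (h.mem_E.1 hz)

theorem kinv_E : KInv K h.E := by
  intro k a ha
  rw [h.mem_E] at ha ⊢
  rw [← smul_mul', ha, smul_one]

theorem E_ne_bot : h.E ≠ ⊥ := by
  obtain ⟨x, y, _, hx, hx2, _⟩ := h.two
  intro he
  have : x ∈ h.E := hx2
  rw [he, Subgroup.mem_bot] at this
  exact hx this

theorem tr {x y : P} (hx : x ∈ h.E) (hx1 : x ≠ 1) (hy : y ∈ h.E) (hy1 : y ≠ 1) : ∃ k : K, k • x = y :=
  h.trans x y hx1 hx hy1 hy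

theorem exists_card_E : ∃ n, 2 ≤ n ∧ Nat.card h.E = 2 ^ n := by
  have hf := h.fin
  have hf2 : Fact (2 : ℕ).Prime := ⟨Nat.prime_two⟩
  obtain ⟨n, hn⟩ := IsPGroup.iff_card.1 (h.p2.to_subgroup h.E)
  refine ⟨n, ?_, hn⟩
  by_contra hlt
  push Not at hlt
  obtain ⟨x, y, hxy, hx, hx2, hy, hy2⟩ := h.two
  have h2 : Nat.card h.E ≤ 2 := by rw [hn]; interval_cases n <;> norm_num
  have h3 : 2 < Nat.card h.E := by
    classical
    have hft : Fintype h.E := Fintype.ofFinite _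
    rw [Nat.card_eq_fintype_card]
    rw [Fintype.two_lt_card_iff]
    exact ⟨1, ⟨x, hx2⟩, ⟨y, hy2⟩, fun e => hx (congrArg Subtype.val e).symm,
      fun e => hy (congrArg Subtype.val e).symm, fun e => hxy (congrArg Subtype.val e)⟩
  omega

theorem E_le {A : Subgroup P} (hA : KInv K A) (hne : A ≠ ⊥) : h.E ≤ A := by
  intro x hx
  rcases eq_or_ne x 1 with rfl | hx1
  · exact A.one_mem
  obtain ⟨z, hz, hz1, hz2⟩ := exists_inv_mem h.fin h.p2 hne
  obtain ⟨k, hk⟩ := h.trans z x hz1 hz2 hx1 hx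
  rw [← hk]
  exact hA k z hz

theorem E_normal : h.E.Normal := ⟨fun e he g => by
  rw [← h.E_comm he g, mul_inv_cancel_right]; exact he⟩

/-- counting: a nonempty `K`-invariant set of 2-power size cannot map equivariantly into the
involutions. -/
theorem no_map (Q : Set P) (φ : P → P) (hQk : ∀ k : K, ∀ y ∈ Q, k • y ∈ Q)
    (hφE : ∀ y ∈ Q, φ y ∈ h.E) (hφ1 : ∀ y ∈ Q, φ y ≠ 1)
    (hφk : ∀ k : K, ∀ y ∈ Q, φ (k • y) = k • φ y) {r : ℕ} (hr : Q.ncard = 2 ^ r) : False := by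
  classical
  have hf := h.fin
  obtain ⟨n, hn, hcE⟩ := h.exists_card_E
  let T : Set P := {e | e ∈ h.E ∧ e ≠ 1}
  have hT : T.ncard = 2 ^ n - 1 := by
    have h1 : T = (h.E : Set P) \ {1} := by
      ext e
      simp only [T, Set.mem_setOf_eq, Set.mem_diff, SetLike.mem_coe, Set.mem_singleton_iff]
    rw [h1, Set.ncard_sdiff_singleton_of_mem h.E.one_mem]
    congr 1
  -- all fibres have the same size
  have hQf : Q.Finite := Set.toFinite _
  obtain ⟨x0, y0, _, hx0, hx02, _⟩ := h.two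
  set c := {y | y ∈ Q ∧ φ y = x0}.ncard with hc
  have hfib : ∀ e ∈ T, {y | y ∈ Q ∧ φ y = e}.ncard = c := by
    rintro e ⟨he, he1⟩
    obtain ⟨k, hk⟩ := h.tr hx02 hx0 he he1
    rw [hc]
    symm
    apply Set.ncard_congr (fun y _ => k • y)
    · rintro y ⟨hy, hy2⟩
      refine ⟨hQk k y hy, ?_⟩
      rw [hφk k y hy, hy2, hk]
    · intro a b _ _ hab
      exact MulAction.injective k hab
    · rintro y ⟨hy, hy2⟩
      refine ⟨k⁻¹ • y, ⟨hQk _ _ hy, ?_⟩, smul_inv_smul k y⟩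
      rw [hφk _ _ hy, hy2, ← hk, inv_smul_smul]
  have hsum : Q.ncard = (2 ^ n - 1) * c := by
    have h1 : Q = ⋃ e ∈ T, {y | y ∈ Q ∧ φ y = e} := by
      ext y
      simp only [Set.mem_iUnion, Set.mem_setOf_eq, exists_prop]
      constructor
      · intro hy
        exact ⟨φ y, ⟨hφE y hy, hφ1 y hy⟩, hy, rfl⟩
      · rintro ⟨e, _, hy, _⟩
        exact hy
    have hTf : T.Finite := Set.toFinite _
    have h2 : Q.ncard = ∑ e ∈ hTf.toFinset, {y | y ∈ Q ∧ φ y = e}.ncard := by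
      have hQF : Q.ncard = hQf.toFinset.card := Set.ncard_eq_toFinset_card Q hQf
      rw [hQF, Finset.card_eq_sum_card_fiberwise (f := φ) (t := hTf.toFinset)]
      · apply Finset.sum_congr rfl
        intro e _
        rw [← Set.ncard_coe_finset]
        congr 1
        ext y
        simp
      · intro y hy
        have hy' : y ∈ Q := by simpa using hy
        have h3 : φ y ∈ T := ⟨hφE y hy', hφ1 y hy'⟩
        simpa using h3
    rw [h2, Finset.sum_congr rfl (fun e he => hfib e (by simpa using he)), Finset.sum_const,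
      smul_eq_mul, ← Set.ncard_eq_toFinset_card T hTf, hT]
  rw [hr] at hsum
  have h3 : (2 ^ n - 1) ∣ 2 ^ r := ⟨c, hsum⟩
  obtain ⟨j, _, hj⟩ := (Nat.dvd_prime_pow Nat.prime_two).1 h3
  rcases Nat.eq_zero_or_pos j with rfl | hj0
  · have h4 : 2 ^ 2 ≤ 2 ^ n := Nat.pow_le_pow_right (by norm_num) hn
    rw [pow_zero] at hj
    omega
  · have h4 : 2 ∣ 2 ^ j := dvd_pow_self 2 hj0.ne'
    have h5 : 2 ∣ 2 ^ n := dvd_pow_self 2 (by omega)
    have h6 : 1 ≤ 2 ^ n := Nat.one_le_two_pow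
    omega

/-- the coordinates of `E` in a field, with a scalar of large order -/
structure CD {P K : Type*} [Group P] [Group K] [MulDistribMulAction K P] (h : ST P K) {F : Type*} [Field F]
    (π : P → F) (κ : K) (lam : F) : Prop where
  add : ∀ x ∈ h.E, ∀ y ∈ h.E, π (x * y) = π x + π y
  ker : ∀ x ∈ h.E, π x = 0 → x = 1
  surj : ∀ s, ∃ x ∈ h.E, π x = s
  semi : ∀ k : K, ∃ a : F, a ≠ 0 ∧ ∃ θ : F ≃+* F, ∀ x ∈ h.E, π (k • x) = a * θ (π x)
  lam0 : lam ≠ 0
  kap : ∀ x ∈ h.E, π (κ • x) = lam * π x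
  n3 : ∀ σ τ : F ≃+* F, σ lam * τ lam = lam → σ = τ
  n4 : ∀ σ σ' ρ : F ≃+* F, ρ lam * σ' lam = lam * ρ (σ lam) → σ = σ'
  card : ∃ n, 2 ≤ n ∧ Nat.card F = 2 ^ n

theorem exists_HC {A : Subgroup P} (hA : Good K A) (hne : A ≠ ⊥) : ∃ m, HC K A m := by
  classical
  have hf := h.fin
  have hf2 : Fact (2 : ℕ).Prime := ⟨Nat.prime_two⟩
  have hex : ∃ m, ∀ a ∈ A, a ^ (2 ^ m) = 1 := by
    obtain ⟨n, hn⟩ := IsPGroup.iff_card.1 (h.p2.to_subgroup A)
    refine ⟨n, fun a ha => ?_⟩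
    have : (⟨a, ha⟩ : A) ^ Nat.card A = 1 := pow_card_eq_one'
    rw [hn] at this
    exact congrArg Subtype.val this
  refine ⟨Nat.find hex, hA, ?_, Nat.find_spec hex, ?_⟩
  · rw [Nat.one_le_iff_ne_zero]
    intro h0
    apply hne
    rw [Subgroup.eq_bot_iff_forall]
    intro a ha
    have := Nat.find_spec hex a ha
    rw [h0] at this
    simpa using this
  · by_contra hcon
    push Not at hcon
    have hpos : 1 ≤ Nat.find hex := by
      rw [Nat.one_le_iff_ne_zero]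
      intro h0
      apply hne
      rw [Subgroup.eq_bot_iff_forall]
      intro a ha
      have := Nat.find_spec hex a ha
      rw [h0] at this
      simpa using this
    have := Nat.find_min' hex hcon
    omega

theorem HC_E_le {A : Subgroup P} {m : ℕ} (hA : HC K A m) : h.E ≤ A := by
  apply h.E_le hA.good.kinv
  rintro rfl
  obtain ⟨a, ha, ha1⟩ := hA.ne
  rw [Subgroup.mem_bot] at ha
  rw [ha, one_pow] at ha1
  exact ha1 rfl

variable {A : Subgroup P} {m : ℕ} (hA : HC K A m)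
include hA

theorem v_mem {a : P} (ha : a ∈ A) : a ^ (2 ^ (m - 1)) ∈ h.E := by
  rw [h.mem_E, ← pow_two, ← pow_mul, ← pow_succ, Nat.sub_add_cancel hA.pos]
  exact hA.exp a ha

theorem v_surj {e : P} (he : e ∈ h.E) : ∃ a ∈ A, a ^ (2 ^ (m - 1)) = e := by
  rcases eq_or_ne e 1 with rfl | he1
  · exact ⟨1, A.one_mem, one_pow _⟩
  obtain ⟨a, ha, ha1⟩ := hA.ne
  obtain ⟨k, hk⟩ := h.tr (h.v_mem hA ha) ha1 he he1
  refine ⟨k • a, hA.good.kinv k a ha, ?_⟩
  rw [← smul_pow']; exact hk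

theorem v_ker {a : P} (ha : a ∈ A) (ha1 : a ^ (2 ^ (m - 1)) = 1) :
    ∃ b ∈ A, b * b = a := by
  have hf := h.fin
  let _ : CommGroup A := { (inferInstance : Group A) with
    mul_comm := fun a b => Subtype.ext (hA.good.comm a a.2 b b.2) }
  let sq : A →* A := powMonoidHom 2
  let vv : A →* A := powMonoidHom (2 ^ (m - 1))
  have hle := h.HC_E_le hA
  have hksq : sq.ker = h.E.subgroupOf A := by
    ext x
    rw [MonoidHom.mem_ker, Subgroup.mem_subgroupOf, h.mem_E]
    show x ^ 2 = 1 ↔ _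
    rw [pow_two]
    constructor
    · intro hx; exact congrArg Subtype.val hx
    · intro hx; exact Subtype.ext hx
  have hrvv : vv.range = h.E.subgroupOf A := by
    ext x
    rw [MonoidHom.mem_range, Subgroup.mem_subgroupOf]
    constructor
    · rintro ⟨y, rfl⟩
      exact h.v_mem hA y.2
    · intro hx
      obtain ⟨y, hy, hyx⟩ := h.v_surj hA hx
      exact ⟨⟨y, hy⟩, Subtype.ext hyx⟩
  have hcE : 0 < Nat.card (h.E.subgroupOf A) := Nat.card_pos
  have h1 : Nat.card sq.ker * Nat.card sq.range = Nat.card A := by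
    rw [← Subgroup.index_ker, Subgroup.card_mul_index]
  have h2 : Nat.card vv.ker * Nat.card vv.range = Nat.card A := by
    rw [← Subgroup.index_ker, Subgroup.card_mul_index]
  have h3 : Nat.card sq.range = Nat.card vv.ker := by
    rw [hksq] at h1
    rw [hrvv] at h2
    apply Nat.eq_of_mul_eq_mul_left hcE
    rw [h1, ← h2, mul_comm]
  have h4 : sq.range ≤ vv.ker := by
    rintro _ ⟨y, rfl⟩
    rw [MonoidHom.mem_ker]
    show (y ^ 2) ^ (2 ^ (m - 1)) = 1
    rw [← pow_mul, ← _root_.pow_succ', Nat.sub_add_cancel hA.pos]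
    exact Subtype.ext (hA.exp y y.2)
  have h5 : sq.range = vv.ker := Subgroup.eq_of_le_of_card_ge h4 h3.ge
  have h6 : (⟨a, ha⟩ : A) ∈ vv.ker := by
    rw [MonoidHom.mem_ker]
    exact Subtype.ext ha1
  rw [← h5] at h6
  obtain ⟨b, hb⟩ := h6
  refine ⟨b, b.2, ?_⟩
  have h7 := congrArg Subtype.val hb
  rw [← pow_two]
  exact h7

/-- conjugation does not change the image in `E` -/
theorem v_conj {a : P} (ha : a ∈ A) (g : P) :
    (g⁻¹ * a * g) ^ (2 ^ (m - 1)) = a ^ (2 ^ (m - 1)) := by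
  have h1 : (g⁻¹ * a * g) ^ (2 ^ (m - 1)) = g⁻¹ * a ^ (2 ^ (m - 1)) * g := by
    have := conj_pow (a := g⁻¹) (b := a) (i := 2 ^ (m - 1))
    rw [inv_inv] at this
    exact this
  rw [h1, mul_assoc, h.E_comm (h.v_mem hA ha) g, inv_mul_cancel_left]

theorem v_cm {a : P} (ha : a ∈ A) (g : P) : (cm a g) ^ (2 ^ (m - 1)) = 1 := by
  have h1 : cm a g = a⁻¹ * (g⁻¹ * a * g) := by unfold Suz2.cm; group
  rw [h1, hA.pow_mul_pow (A.inv_mem ha) (hA.conj_mem ha g), h.v_conj hA ha, inv_pow, inv_mul_cancel]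

end ST

end Cfsg.Agent.Suz3
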