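import Mathlib
import Cfsg.Agent.Suz3.Homo

/-! a self-centralizing invariant abelian normal subgroup has exponent at most 4. -/

set_option autoImplicit false

namespace Cfsg.Agent.Suz3

open Cfsg.Agent.Suz2 (KInv cm HC Good mid kinv_mid normal_mid le_mid exists_mem_mid act_eq_one_iff exists_inv_mem
  cm_smul cm_eq_one mul_eq_cm cm_mul_left cm_mul_right conj_eq_mul_cm cm_self cm_one_left cm_inv_comm)

variable {P K : Type*} [Group P] [Group K] [MulDistribMulAction K P]

namespace ST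

variable (h : ST P K)
include h

/-- An equivariant additive family of idempotents of `E` consists of `0` and `1`. -/
theorem dich {M : Subgroup P} (hMk : KInv K M) (D : P → P → P)
    (hmem : ∀ y ∈ M, ∀ e ∈ h.E, D y e ∈ h.E)
    (hadd : ∀ y ∈ M, ∀ e ∈ h.E, ∀ f ∈ h.E, D y (e * f) = D y e * D y f)
    (hmul : ∀ y ∈ M, ∀ z ∈ M, ∀ e ∈ h.E, D (y * z) e = D y e * D z e)
    (hK : ∀ k : K, ∀ y ∈ M, ∀ e ∈ h.E, D (k • y) (k • e) = k • D y e)
    (hid : ∀ y ∈ M, ∀ e ∈ h.E, D y (D y e) = D y e) :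
    ∀ y ∈ M, (∀ f ∈ h.E, D y f = 1) ∨ (∀ f ∈ h.E, D y f = f) := by
  classical
  have hf := h.fin
  have hone : ∀ y ∈ M, D y 1 = 1 := by
    intro y hy
    have := hadd y hy 1 h.E.one_mem 1 h.E.one_mem
    rw [mul_one] at this
    exact left_eq_mul.1 this
  have hcomm : ∀ y ∈ M, ∀ z ∈ M, ∀ e ∈ h.E, D y (D z e) = D z (D y e) := by
    intro y hy z hz e he
    have h1 := hid (y * z) (M.mul_mem hy hz) e he
    have hy1 := hmem y hy e he
    have hz1 := hmem z hz e he
    rw [hmul y hy z hz e he, hmul y hy z hz _ (h.E.mul_mem hy1 hz1), hadd y hy _ hy1 _ hz1,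
      hadd z hz _ hy1 _ hz1, hid y hy e he, hid z hz e he] at h1
    have ha := hmem y hy _ hz1
    have hb := hmem z hz _ hy1
    have h2 : D y (D z e) * D z (D y e) = 1 := by
      have h3 : D y e * D y (D z e) * (D z (D y e) * D z e) = D y e * D z e * (D y (D z e) * D z (D y e)) := by
        have e1 := h.E_comm ha
        have e2 := h.E_comm hb
        have e3 : D z (D y e) * D z e = D z e * D z (D y e) := e2 _
        calc D y e * D y (D z e) * (D z (D y e) * D z e)
            = D y e * (D y (D z e) * D z e) * D z (D y e) := by rw [e3]; group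
          _ = D y e * (D z e * D y (D z e)) * D z (D y e) := by rw [e1]
          _ = _ := by group
      rw [h3] at h1
      exact mul_eq_left.1 h1
    have h4 := mul_eq_one_iff_eq_inv.1 h2
    rw [h4, h.E_inv hb]
  -- simultaneous eigenvector
  obtain ⟨x0, y0, _, hx0, hx02, _⟩ := h.two
  let T := {e : P // e ∈ h.E ∧ e ≠ 1}
  have hTf : Finite T := inferInstance
  have hTne : Nonempty T := ⟨⟨x0, hx02, hx0⟩⟩
  let S : T → ℕ := fun e => Set.ncard {y : P | y ∈ M ∧ (D y e.1 = 1 ∨ D y e.1 = e.1)}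
  obtain ⟨⟨e, he, he1⟩, hmax⟩ := Finite.exists_max S
  have heig : ∀ y ∈ M, D y e = 1 ∨ D y e = e := by
    intro y hy
    by_contra hcon
    push Not at hcon
    set e' := D y e with he'
    have he'E : e' ∈ h.E := hmem y hy e he
    have hlt : S ⟨e, he, he1⟩ < S ⟨e', he'E, hcon.1⟩ := by
      apply Set.ncard_lt_ncard _ (Set.toFinite _)
      refine ⟨?_, ?_⟩
      · rintro z ⟨hz, hze⟩
        refine ⟨hz, ?_⟩
        have h1 : D z e' = D y (D z e) := hcomm z hz y hy e he
        have hze' : D z e = 1 ∨ D z e = e := hze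
        rcases hze' with h2 | h2
        · left; show D z e' = 1
          rw [h1, h2, hone y hy]
        · right; show D z e' = e'
          rw [h1, h2]
      · intro hss
        have h1 : y ∈ {y : P | y ∈ M ∧ (D y e' = 1 ∨ D y e' = e')} := ⟨hy, Or.inr (hid y hy e he)⟩
        have h2 := hss h1
        have h3 : D y e = 1 ∨ D y e = e := h2.2
        rcases h3 with h4 | h4
        · exact hcon.1 h4
        · exact hcon.2 h4
    exact absurd (hmax ⟨e', he'E, hcon.1⟩) (not_le.2 hlt)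
  have hall : ∀ f ∈ h.E, ∀ y ∈ M, D y f = 1 ∨ D y f = f := by
    intro f hf1 y hy
    rcases eq_or_ne f 1 with rfl | hfne
    · left; exact hone y hy
    obtain ⟨k, hk⟩ := h.tr he he1 hf1 hfne
    have hk' : k • e = f := hk
    have h1 := hK k (k⁻¹ • y) (hMk _ _ hy) e he
    rw [smul_inv_smul, hk'] at h1
    rcases heig (k⁻¹ • y) (hMk _ _ hy) with h2 | h2
    · left; rw [h1, h2, smul_one]
    · right; rw [h1, h2, hk']
  -- each `D y` is trivial or the identity
  have hdich : ∀ y ∈ M, (∀ f ∈ h.E, D y f = 1) ∨ (∀ f ∈ h.E, D y f = f) := by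
    intro y hy
    by_cases hex : ∃ f ∈ h.E, D y f ≠ 1
    · right
      obtain ⟨f, hfE, hf1⟩ := hex
      have hff : D y f = f := (hall f hfE y hy).resolve_left hf1
      intro g hg
      rcases hall g hg y hy with h1 | h1
      · have h2 := hadd y hy f hfE g hg
        rw [hff, h1, mul_one] at h2
        rcases hall (f * g) (h.E.mul_mem hfE hg) y hy with h3 | h3
        · rw [h2] at h3
          rw [hff, h3] at hf1
          exact absurd rfl hf1
        · rw [h2] at h3
          have hg1 : g = 1 := left_eq_mul.1 h3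
          rw [hg1, hone y hy]
      · exact h1
    · left
      push Not at hex
      exact hex
  exact hdich

/-- no element of `M` can act as the identity operator -/
theorem no_id {M : Subgroup P} (hMk : KInv K M) (D : P → P → P)
    (hmem : ∀ y ∈ M, ∀ e ∈ h.E, D y e ∈ h.E)
    (hmul : ∀ y ∈ M, ∀ z ∈ M, ∀ e ∈ h.E, D (y * z) e = D y e * D z e)
    (hK : ∀ k : K, ∀ y ∈ M, ∀ e ∈ h.E, D (k • y) (k • e) = k • D y e)
    (hsq : ∀ y ∈ M, (∀ e ∈ h.E, D y e = e) → y * y ∈ h.E)
    (hE : ∀ y ∈ h.E, y ∈ M → ∀ e ∈ h.E, D y e = 1) :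
    ∀ y ∈ M, ¬ ∀ e ∈ h.E, D y e = e := by
  classical
  intro y0 hy0 hy0id
  have hf := h.fin
  have hf2 : Fact (2 : ℕ).Prime := ⟨Nat.prime_two⟩
  have hD1 : ∀ e ∈ h.E, D 1 e = 1 := by
    intro e he
    have := hmul 1 M.one_mem 1 M.one_mem e he
    rw [mul_one] at this
    exact left_eq_mul.1 this
  have hinv : ∀ y ∈ M, ∀ e ∈ h.E, D y⁻¹ e = D y e := by
    intro y hy e he
    have := hmul y hy y⁻¹ (M.inv_mem hy) e he
    rw [mul_inv_cancel, hD1 e he] at this
    have h2 := eq_inv_of_mul_eq_one_right this.symm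
    rw [h2, h.E_inv (hmem y hy e he)]
  let N : Subgroup P :=
    { carrier := {z | z ∈ M ∧ ∀ e ∈ h.E, D z e = 1}
      mul_mem' := by
        rintro a b ⟨ha, ha2⟩ ⟨hb, hb2⟩
        exact ⟨M.mul_mem ha hb, fun e he => by rw [hmul a ha b hb e he, ha2 e he, hb2 e he, mul_one]⟩
      one_mem' := ⟨M.one_mem, hD1⟩
      inv_mem' := by
        rintro a ⟨ha, ha2⟩
        exact ⟨M.inv_mem ha, fun e he => by rw [hinv a ha e he, ha2 e he]⟩ }
  let Q : Set P := {z | z ∈ M ∧ ∀ e ∈ h.E, D z e = e}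
  have hQN : Q.ncard = Nat.card N := by
    show Nat.card Q = Nat.card N
    symm
    apply Nat.card_congr
    exact
      { toFun := fun z => ⟨y0 * z.1, M.mul_mem hy0 z.2.1, fun e he => by
          rw [hmul _ hy0 _ z.2.1 e he, hy0id e he, z.2.2 e he, mul_one]⟩
        invFun := fun z => ⟨y0⁻¹ * z.1, M.mul_mem (M.inv_mem hy0) z.2.1, fun e he => by
          rw [hmul _ (M.inv_mem hy0) _ z.2.1 e he, hinv _ hy0 e he, hy0id e he, z.2.2 e he]
          exact he⟩
        left_inv := fun z => Subtype.ext (inv_mul_cancel_left y0 z.1)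
        right_inv := fun z => Subtype.ext (mul_inv_cancel_left y0 z.1) }
  obtain ⟨r, hr⟩ := IsPGroup.iff_card.1 (h.p2.to_subgroup N)
  refine h.no_map Q (fun y => y * y) ?_ ?_ ?_ ?_ (r := r) (by rw [hQN, hr])
  · rintro k y ⟨hy, hy2⟩
    refine ⟨hMk k y hy, fun e he => ?_⟩
    have h1 := hK k y hy (k⁻¹ • e) (h.kinv_E _ _ he)
    rw [smul_inv_smul, hy2 _ (h.kinv_E _ _ he), smul_inv_smul] at h1
    exact h1
  · rintro y ⟨hy, hy2⟩
    exact hsq y hy hy2
  · rintro y ⟨hy, hy2⟩ hyy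
    obtain ⟨x, _, _, hx, hx2, _⟩ := h.two
    apply hx
    rw [← hy2 x hx2]
    exact hE y hyy hy x hx2
  · intro k y _
    show (k • y) * (k • y) = k • (y * y)
    rw [smul_mul']

/-- Step 2: a self-centralizing proper `K`-invariant abelian normal subgroup has exponent at most 4. -/
theorem exp_le_two {F : Type*} [Field F] [CharP F 2] {π : P → F} {κ : K} {lam : F} (c : h.CD π κ lam) {A : Subgroup P} {m : ℕ} (hA : HC K A m)
    (hself : Subgroup.centralizer (A : Set P) ≤ A) (hne : A ≠ ⊤) : m ≤ 2 := by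
  have hf := h.fin
  by_contra hm
  push Not at hm
  have hAn := hA.good.normal
  have hle := h.HC_E_le hA
  have hTn : (⊤ : Subgroup P).Normal := inferInstance
  obtain ⟨x1, hx1, hx1A⟩ := exists_mem_mid h.fin h.p2 hAn hTn (lt_top_iff_ne_top.2 hne)
  set M := mid A ⊤ hAn with hM
  have hMk : KInv K M := kinv_mid hA.good.kinv (fun k x _ => Subgroup.mem_top _)
  have hAM : A ≤ M := le_mid le_top
  have hAc := hA.good.comm
  have hcA : ∀ a ∈ A, ∀ y : P, cm a y ∈ A := fun a ha y => hA.cm_mem ha y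
  -- additivity in `A`
  have hcl : ∀ a ∈ A, ∀ b ∈ A, ∀ y : P, cm (a * b) y = cm a y * cm b y := by
    intro a ha b hb y
    rw [cm_mul_left, mul_assoc b⁻¹, hAc _ (hcA a ha y) b hb, inv_mul_cancel_left]
  have hcr : ∀ a ∈ A, ∀ y z : P, cm a (y * z) = cm a z * cm a y * cm (cm a y) z := by
    intro a ha y z
    rw [cm_mul_right, conj_eq_mul_cm, mul_assoc]
  have hc1 : ∀ a ∈ A, ∀ b ∈ A, cm a b = 1 := fun a ha b hb => cm_eq_one.2 (hAc a ha b hb)
  have hcE : ∀ e ∈ h.E, ∀ y : P, cm e y = 1 := fun e he y => cm_eq_one.2 (h.E_comm he y)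
  have hcinv : ∀ a ∈ A, ∀ y : P, cm a⁻¹ y = (cm a y)⁻¹ := by
    intro a ha y
    have := hcl a⁻¹ (A.inv_mem ha) a ha y
    rw [inv_mul_cancel, cm_one_left] at this
    exact eq_inv_of_mul_eq_one_left this.symm
  have hcpow : ∀ a ∈ A, ∀ y : P, ∀ n : ℕ, cm (a ^ n) y = (cm a y) ^ n := by
    intro a ha y n
    induction n with
    | zero => rw [pow_zero, pow_zero, cm_one_left]
    | succ n ih => rw [_root_.pow_succ, hcl _ (A.pow_mem ha n) a ha y, ih, _root_.pow_succ]
  -- (c3)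
  have hc3 : ∀ a ∈ A, ∀ y ∈ M, cm a y * cm a y * cm (cm a y) y = 1 := by
    intro a ha y hy
    rw [← hcr a ha y y]
    exact hc1 a ha _ hy.2.1
  -- choice of square roots
  have hsqrt : ∀ e ∈ h.E, ∃ u ∈ A, u ^ 4 = e := by
    intro e he
    obtain ⟨a, ha, hae⟩ := h.v_surj hA he
    refine ⟨a ^ (2 ^ (m - 3)), A.pow_mem ha _, ?_⟩
    rw [← hae, ← pow_mul]
    congr 1
    rw [show (4 : ℕ) = 2 ^ 2 by norm_num, ← pow_add]
    congr 1; omega
  have hsq_ind : ∀ w ∈ A, ∀ w' ∈ A, w * w = w' * w' → w * w ∈ h.E → ∀ y : P, cm w y = cm w' y := by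
    intro w hw w' hw' hww hwE y
    have h1 : w'⁻¹ * w ∈ h.E := by
      rw [h.mem_E]
      have h2 : w'⁻¹ * w = w * w'⁻¹ := hAc _ (A.inv_mem hw') _ hw
      calc w'⁻¹ * w * (w'⁻¹ * w) = w'⁻¹ * w * (w * w'⁻¹) := by rw [h2]
        _ = w'⁻¹ * (w * w) * w'⁻¹ := by group
        _ = w'⁻¹ * (w' * w') * w'⁻¹ := by rw [hww]
        _ = 1 := by group
    have h3 : w = w' * (w'⁻¹ * w) := by group
    rw [h3, hcl w' hw' _ (hle h1) y, hcE _ h1, mul_one]
  have hw : ∀ e ∈ h.E, ∃ w ∈ A, w * w = e := by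
    intro e he
    obtain ⟨u, hu, hue⟩ := hsqrt e he
    refine ⟨u ^ 2, A.pow_mem hu 2, ?_⟩
    rw [← pow_add]; exact hue
  choose! w hwA hww using hw
  have hcwE : ∀ y : P, ∀ e ∈ h.E, cm (w e) y ∈ h.E := by
    intro y e he
    rw [h.mem_E, ← hcl _ (hwA e he) _ (hwA e he) y, hww e he, hcE e he]
  have hDeq : ∀ y : P, ∀ e ∈ h.E, ∀ u ∈ A, u * u = e → cm (w e) y = cm u y := by
    intro y e he u hu hue
    refine hsq_ind _ (hwA e he) u hu ?_ ?_ y
    · rw [hww e he, hue]
    · rw [hww e he]; exact he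
  have hD0 := h.dich hMk (fun y e => cm (w e) y) (fun y _ e he => hcwE y e he)
    (fun y hy e he f hf => by
      show cm (w (e * f)) y = cm (w e) y * cm (w f) y
      rw [← hcl _ (hwA e he) _ (hwA f hf) y]
      refine hDeq y _ (h.E.mul_mem he hf) _ (A.mul_mem (hwA e he) (hwA f hf)) ?_
      have h1 := hAc _ (hwA e he) _ (hwA f hf)
      calc w e * w f * (w e * w f) = w e * (w f * w e) * w f := by group
        _ = w e * (w e * w f) * w f := by rw [h1]
        _ = w e * w e * (w f * w f) := by group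
        _ = e * f := by rw [hww e he, hww f hf])
    (fun y hy z hz e he => by
      show cm (w e) (y * z) = cm (w e) y * cm (w e) z
      rw [hcr _ (hwA e he), hcE _ (hcwE y e he), mul_one]
      exact h.E_comm (hcwE z e he) _)
    (fun k y hy e he => by
      show cm (w (k • e)) (k • y) = k • cm (w e) y
      rw [cm_smul]
      refine hDeq _ _ (h.kinv_E k e he) _ (hA.good.kinv k _ (hwA e he)) ?_
      rw [← smul_mul', hww e he])
    (fun y hy e he => by
      show cm (w (cm (w e) y)) y = cm (w e) y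
      obtain ⟨u, hu, hue⟩ := hsqrt e he
      have hu2 : u ^ 2 * u ^ 2 = e := by rw [← pow_add]; exact hue
      have h1 : cm (w e) y = cm (u ^ 2) y := hDeq y e he _ (A.pow_mem hu 2) hu2
      have h2 : cm u y * cm u y = cm (w e) y := by
        rw [h1, pow_two, hcl u hu u hu y]
      rw [hDeq y _ (hcwE y e he) _ (hcA u hu y) h2]
      have h3 := hc3 u hu y hy
      rw [h2] at h3
      have h4 := eq_inv_of_mul_eq_one_right h3
      rw [h4, h.E_inv (hcwE y e he)])
  have hDm : ∀ y ∈ M, ∀ z ∈ M, ∀ e ∈ h.E, cm (w e) (y * z) = cm (w e) y * cm (w e) z := by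
    intro y hy z hz e he
    rw [hcr _ (hwA e he), hcE _ (hcwE y e he), mul_one]
    exact h.E_comm (hcwE z e he) _
  have hDk : ∀ k : K, ∀ y ∈ M, ∀ e ∈ h.E, cm (w (k • e)) (k • y) = k • cm (w e) y := by
    intro k y hy e he
    rw [cm_smul]
    refine hDeq _ _ (h.kinv_E k e he) _ (hA.good.kinv k _ (hwA e he)) ?_
    rw [← smul_mul', hww e he]
  have hnoid := h.no_id hMk (fun y e => cm (w e) y) (fun y _ e he => hcwE y e he) hDm hDk
    (by
      intro y hy hyid
      by_contra hyE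
      have hb : y * y ∈ A := hy.2.1
      have hyE' : y * y * (y * y) ≠ 1 := hyE
      classical
      have hex : ∃ i, (y * y) ^ (2 ^ i) = 1 := ⟨m, hA.exp _ hb⟩
      have hsp := Nat.find_spec hex
      have hmin := fun i => Nat.find_min' hex (m := i)
      set i := Nat.find hex with hi
      have hi2 : 2 ≤ i := by
        by_contra hlt
        have h01 : i = 0 ∨ i = 1 := by omega
        rcases h01 with h0 | h0
        · rw [h0] at hsp
          apply hyE'
          have h1 : y * y = 1 := by simpa using hsp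
          rw [h1, one_mul]
        · rw [h0] at hsp
          apply hyE'
          rw [← pow_two]; simpa using hsp
      set b' := (y * y) ^ (2 ^ (i - 2)) with hb'
      have hb'A : b' ∈ A := A.pow_mem hb _
      have hb2 : b' * b' = (y * y) ^ (2 ^ (i - 1)) := by
        rw [hb', ← pow_two, ← pow_mul, ← _root_.pow_succ]
        congr 2; omega
      have hb4 : b' * b' ∈ h.E := by
        rw [h.mem_E, hb2, ← pow_two, ← pow_mul, ← _root_.pow_succ, show i - 1 + 1 = i by omega]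
        exact hsp
      have hbne : b' * b' ≠ 1 := by
        intro h1
        rw [hb2] at h1
        have := hmin _ h1
        omega
      have h1 : cm (w (b' * b')) y = b' * b' := hyid _ hb4
      rw [hDeq y _ hb4 _ hb'A rfl] at h1
      apply hbne
      rw [← h1, cm_eq_one, hb']
      exact ((Commute.refl y).mul_left (Commute.refl y)).pow_left _)
    (by
      intro y hyE _ e he
      show cm (w e) y = 1
      exact hc1 _ (hwA e he) _ (hle hyE))
  have hD : ∀ y ∈ M, ∀ e ∈ h.E, cm (w e) y = 1 := by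
    intro y hy
    rcases hD0 y hy with h1 | h1
    · exact h1
    · exact absurd h1 (hnoid y hy)
  -- elements of order dividing 4 in `A` are centralized by `M`
  have hord4 : ∀ a ∈ A, a * a ∈ h.E → ∀ y ∈ M, cm a y = 1 := by
    intro a ha haE y hy
    rw [← hDeq y _ haE a ha rfl]
    exact hD y hy _ haE
  -- `[A, M] ≤ E`
  have hAME : ∀ j : ℕ, ∀ a ∈ A, a ^ (2 ^ j) = 1 → ∀ y ∈ M, cm a y ∈ h.E := by
    intro j
    induction j using Nat.strong_induction_on with
    | _ j ih =>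
      intro a ha haj y hy
      rcases Nat.lt_or_ge j 3 with hj | hj
      · have h4 : a ^ 4 = 1 := by
          have : 2 ^ j ∣ 4 := by
            interval_cases j <;> norm_num
          obtain ⟨c, hc⟩ := this
          rw [hc, pow_mul, haj, one_pow]
        have haE : a * a ∈ h.E := by
          rw [h.mem_E, ← pow_two, ← pow_two, ← pow_mul]; exact h4
        rw [hord4 a ha haE y hy]
        exact h.E.one_mem
      · set c := cm a y with hc
        have hcA' : c ∈ A := hcA a ha y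
        have hcpow' : c ^ (2 ^ (j - 2)) = 1 := by
          rw [hc, ← hcpow a ha y]
          apply hord4 _ (A.pow_mem ha _) _ y hy
          rw [h.mem_E, ← pow_two, ← pow_two, ← pow_mul, ← pow_mul]
          have : 2 ^ (j - 2) * 2 * 2 = 2 ^ j := by
            rw [mul_assoc, show 2 * 2 = 2 ^ 2 by norm_num, ← pow_add]
            congr 1; omega
          rw [show 2 ^ (j - 2) * (2 * 2) = 2 ^ (j - 2) * 2 * 2 by ring, this]
          exact haj
        have h1 : cm c y ∈ h.E := ih (j - 2) (by omega) c hcA' hcpow' y hy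
        have h2 := hc3 a ha y hy
        rw [← hc] at h2
        have h3 : c * c ∈ h.E := by
          rw [mul_eq_one_iff_eq_inv.1 h2]
          exact h.E.inv_mem h1
        rw [hord4 c hcA' h3 y hy, mul_one] at h2
        exact h2
  have hAM' : ∀ a ∈ A, ∀ y ∈ M, cm a y ∈ h.E := fun a ha y hy => hAME m a ha (hA.exp a ha) y hy
  -- the power map
  have hσ : ∀ x : P, x ^ (2 ^ m) = (x * x) ^ (2 ^ (m - 1)) := by
    intro x
    rw [← pow_two, ← pow_mul, ← _root_.pow_succ', Nat.sub_add_cancel hA.pos]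
  have hσE : ∀ x ∈ M, x ^ (2 ^ m) ∈ h.E := fun x hx => by
    rw [hσ]; exact h.v_mem hA hx.2.1
  have hpow4 : ∀ a ∈ A, a * a ∈ h.E → a ^ (2 ^ (m - 1)) = 1 := by
    intro a ha haE
    have : 2 ^ (m - 1) = 2 * 2 * 2 ^ (m - 3) := by
      rw [show 2 * 2 = 2 ^ 2 by norm_num, ← pow_add]
      congr 1; omega
    rw [this, pow_mul, pow_mul, pow_two, pow_two, h.mem_E.1 haE, one_pow]
  have hMcE : ∀ x ∈ M, ∀ y ∈ M, cm x y * cm x y ∈ h.E := by
    intro x hx y hy
    have hc : cm x y ∈ A := hx.2.2 y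
    have h1 : cm (x * x) y = cm x y * cm x y * cm (cm x y) x := by
      rw [cm_mul_left, conj_eq_mul_cm]
      have h2 := h.E_comm (hAM' _ hc x hx) (cm x y)
      rw [mul_assoc, h2, ← mul_assoc]
    have h2 := hAM' _ hx.2.1 y hy
    rw [h1] at h2
    have h3 := h.E.mul_mem h2 (h.E.inv_mem (hAM' _ hc x hx))
    rwa [mul_inv_cancel_right] at h3
  have hσmul : ∀ x ∈ M, ∀ y ∈ M, (x * y) ^ (2 ^ m) = x ^ (2 ^ m) * y ^ (2 ^ m) := by
    intro x hx y hy
    have hc : cm y x ∈ A := hy.2.2 x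
    have h1 : x * y * (x * y) = (x * x) * (y * y) * (y⁻¹ * cm y x * y) := by
      unfold cm; group
    have hcA' : y⁻¹ * cm y x * y ∈ A := hA.conj_mem hc y
    rw [hσ, h1, hA.pow_mul_pow (A.mul_mem hx.2.1 hy.2.1) hcA', hA.pow_mul_pow hx.2.1 hy.2.1,
      h.v_conj hA hc, hpow4 _ hc (hMcE y hy x hx), mul_one, ← hσ, ← hσ]
  have hσker : ∀ x ∈ M, x ^ (2 ^ m) = 1 → x ∈ A := by
    intro y hy h1
    rw [hσ] at h1
    obtain ⟨a, ha, ha2⟩ := h.v_ker hA hy.2.1 h1
    have heE := hAM' a ha y hy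
    set f := w (cm a y) with hf'
    have hfA : f ∈ A := hwA _ heE
    have hff : f * f = cm a y := hww _ heE
    have hfc : cm f y = 1 := hord4 f hfA (by rw [hff]; exact heE) y hy
    have hb : a⁻¹ * f ∈ A := A.mul_mem (A.inv_mem ha) hfA
    have h2 : y * (a⁻¹ * f) ∈ h.E := by
      rw [h.mem_E]
      have e1 : y * (a⁻¹ * f) * (y * (a⁻¹ * f)) = y * y * (y⁻¹ * (a⁻¹ * f) * y) * (a⁻¹ * f) := by group
      rw [e1, conj_eq_mul_cm, hcl _ (A.inv_mem ha) _ hfA, hcinv a ha, hfc, mul_one, ← ha2]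
      have e2 : (cm a y)⁻¹ * (a⁻¹ * f) = a⁻¹ * f * (cm a y)⁻¹ := by
        exact h.E_comm (h.E.inv_mem heE) _
      have e3 : f * a⁻¹ = a⁻¹ * f := hAc _ hfA _ (A.inv_mem ha)
      calc a * a * (a⁻¹ * f * (cm a y)⁻¹) * (a⁻¹ * f)
          = a * f * ((cm a y)⁻¹ * (a⁻¹ * f)) := by group
        _ = a * f * (a⁻¹ * f * (cm a y)⁻¹) := by rw [e2]
        _ = a * (f * a⁻¹) * f * (cm a y)⁻¹ := by group
        _ = a * (a⁻¹ * f) * f * (cm a y)⁻¹ := by rw [e3]
        _ = f * f * (cm a y)⁻¹ := by group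
        _ = 1 := by rw [hff, mul_inv_cancel]
    have h3 := A.mul_mem (hle h2) (A.inv_mem hb)
    rwa [mul_inv_cancel_right] at h3
  have hσsurj : ∀ e ∈ h.E, ∃ x ∈ M, x ^ (2 ^ m) = e := by
    intro e he
    rcases eq_or_ne e 1 with rfl | he1
    · exact ⟨1, M.one_mem, one_pow _⟩
    have h1 : x1 ^ (2 ^ m) ≠ 1 := fun h1 => hx1A (hσker x1 hx1 h1)
    obtain ⟨k, hk⟩ := h.tr (hσE x1 hx1) h1 he he1
    refine ⟨k • x1, hMk k x1 hx1, ?_⟩
    rw [← smul_pow']; exact hk
  have hvsurj : ∀ e ∈ h.E, ∃ a ∈ A, a ^ (2 ^ (m - 1)) = e := fun e he => h.v_surj hA he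
  have hcr' : ∀ a ∈ A, ∀ y ∈ M, ∀ z ∈ M, cm a (y * z) = cm a y * cm a z := by
    intro a ha y hy z hz
    rw [hcr a ha, hcE _ (hAM' a ha y hy), mul_one]
    exact h.E_comm (hAM' a ha z hz) _
  -- dependence only on the images
  have hdepM : ∀ a ∈ A, ∀ y ∈ M, ∀ z ∈ M, y ^ (2 ^ m) = z ^ (2 ^ m) → cm a y = cm a z := by
    intro a ha y hy z hz hyz
    have h1 : (z⁻¹ * y) ^ (2 ^ m) = 1 := by
      rw [hσmul _ (M.inv_mem hz) _ hy, hyz, inv_pow, inv_mul_cancel]
    have h2 := hσker _ (M.mul_mem (M.inv_mem hz) hy) h1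
    have h3 : y = z * (z⁻¹ * y) := by group
    rw [h3, hcr' a ha z hz _ (hAM h2), hc1 a ha _ h2, mul_one]
  have hdepA : ∀ y ∈ M, ∀ a ∈ A, ∀ b ∈ A, a ^ (2 ^ (m - 1)) = b ^ (2 ^ (m - 1)) → cm a y = cm b y := by
    intro y hy a ha b hb hab
    have h1 : (b⁻¹ * a) ^ (2 ^ (m - 1)) = 1 := by
      rw [hA.pow_mul_pow (A.inv_mem hb) ha, hab, inv_pow, inv_mul_cancel]
    obtain ⟨c, hc, hc2⟩ := h.v_ker hA (A.mul_mem (A.inv_mem hb) ha) h1
    have h3 : a = b * (c * c) := by rw [hc2]; group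
    rw [h3, hcl b hb _ (A.mul_mem hc hc), hcl c hc c hc, h.mem_E.1 (hAM' c hc y hy), mul_one]
  choose! r hrM hr using hσsurj
  choose! t htA ht using hvsurj
  have key := c.hua_E (fun e f => cm (t f) (r e))
    (fun e he f hf => hAM' _ (htA f hf) _ (hrM e he))
    (fun e he e' he' f hf => by
      show cm (t f) (r (e * e')) = cm (t f) (r e) * cm (t f) (r e')
      rw [← hcr' _ (htA f hf) _ (hrM e he) _ (hrM e' he')]
      refine hdepM _ (htA f hf) _ (hrM _ (h.E.mul_mem he he')) _ (M.mul_mem (hrM e he) (hrM e' he')) ?_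
      rw [hr _ (h.E.mul_mem he he'), hσmul _ (hrM e he) _ (hrM e' he'), hr e he, hr e' he'])
    (fun e he f hf f' hf' => by
      show cm (t (f * f')) (r e) = cm (t f) (r e) * cm (t f') (r e)
      rw [← hcl _ (htA f hf) _ (htA f' hf')]
      refine hdepA _ (hrM e he) _ (htA _ (h.E.mul_mem hf hf')) _ (A.mul_mem (htA f hf) (htA f' hf')) ?_
      rw [ht _ (h.E.mul_mem hf hf'), hA.pow_mul_pow (htA f hf) (htA f' hf'), ht f hf, ht f' hf'])
    (fun e he => by
      show cm (t e) (r e) = 1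
      have h1 : t e ^ (2 ^ (m - 1)) = (r e * r e) ^ (2 ^ (m - 1)) := by
        rw [ht e he, ← hσ, hr e he]
      rw [hdepA _ (hrM e he) _ (htA e he) _ (hrM e he).2.1 h1, cm_eq_one]
      group)
    (fun k e he f hf => by
      show cm (t (k • f)) (r (k • e)) = k • cm (t f) (r e)
      rw [cm_smul]
      have h1 : (r (k • e)) ^ (2 ^ m) = (k • r e) ^ (2 ^ m) := by
        rw [hr _ (h.kinv_E k e he), ← smul_pow', hr e he]
      have h2 : (t (k • f)) ^ (2 ^ (m - 1)) = (k • t f) ^ (2 ^ (m - 1)) := by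
        rw [ht _ (h.kinv_E k f hf), ← smul_pow', ht f hf]
      rw [hdepM _ (htA _ (h.kinv_E k f hf)) _ (hrM _ (h.kinv_E k e he)) _ (hMk k _ (hrM e he)) h1]
      exact hdepA _ (hMk k _ (hrM e he)) _ (htA _ (h.kinv_E k f hf)) _ (hA.good.kinv k _ (htA f hf)) h2)
  apply hx1A
  apply hself
  rw [Subgroup.mem_centralizer_iff]
  intro a ha
  rw [← cm_eq_one]
  have h1 := key _ (hσE x1 hx1) _ (h.v_mem hA ha)
  rw [hdepM a ha x1 hx1 _ (hrM _ (hσE x1 hx1)) (hr _ (hσE x1 hx1)).symm]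
  rw [hdepA _ (hrM _ (hσE x1 hx1)) a ha _ (htA _ (h.v_mem hA ha)) (ht _ (h.v_mem hA ha)).symm]
  exact h1


end ST

end Cfsg.Agent.Suz3
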