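import Mathlib
import Cfsg.Agent.Suz3.Basic
import Cfsg.Agent.Suz2.Dedekind

/-! The Hua lemma for `E` from the scalar of large order. -/

set_option autoImplicit false

namespace Cfsg.Agent.Suz3

open Cfsg.Agent.Suz2 (KInv cm HC Good)

/-- an alternating biadditive map commuting with a scalar `lam` such that `σ lam * τ lam = lam`
only for `σ = τ` vanishes -/
theorem hua_field {F : Type*} [Field F] [Finite F] [CharP F 2] {lam : F}
    (h3 : ∀ σ τ : F ≃+* F, σ lam * τ lam = lam → σ = τ) (B : F → F → F)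
    (hl : ∀ s s' t, B (s + s') t = B s t + B s' t) (hr : ∀ s t t', B s (t + t') = B s t + B s t')
    (halt : ∀ s, B s s = 0) (hk : ∀ s t, B (lam * s) (lam * t) = lam * B s t) :
    ∀ s t, B s t = 0 := by
  classical
  have hfa := Cfsg.Agent.Suz2.finite_aut F
  have _ : Fintype (F ≃+* F) := Fintype.ofFinite _
  let B' : F →+ F →+ F := AddMonoidHom.mk' (fun s => AddMonoidHom.mk' (fun t => B s t) (hr s))
    (fun s s' => by ext t; exact hl s s' t)
  obtain ⟨c, hc⟩ := Cfsg.Agent.Suz2.biadd_expand B'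
  have hcB : ∀ s t, B s t = ∑ p, c p * (p.1 s * p.2 t) := hc
  have hind := Fintype.linearIndependent_iff.1 (Cfsg.Agent.Suz2.aut_indep F)
  -- two-variable independence
  have hind2 : ∀ d : (F ≃+* F) × (F ≃+* F) → F, (∀ s t, ∑ p, d p * (p.1 s * p.2 t) = 0) → ∀ p, d p = 0 := by
    intro d hd
    have h1 : ∀ s τ, ∑ σ, d (σ, τ) * σ s = 0 := by
      intro s
      have h2 := hind (fun τ => ∑ σ, d (σ, τ) * σ s) (by
        ext t
        have h3 := hd s t
        rw [Fintype.sum_prod_type_right] at h3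
        simp only [Finset.sum_apply, Pi.smul_apply, smul_eq_mul, Pi.zero_apply]
        rw [← h3]
        apply Finset.sum_congr rfl
        intro τ _
        rw [Finset.sum_mul]
        apply Finset.sum_congr rfl
        intro σ _
        show d (σ, τ) * σ s * τ t = _
        ring)
      exact h2
    rintro ⟨σ, τ⟩
    exact hind (fun σ => d (σ, τ)) (by
      ext s
      simp only [Finset.sum_apply, Pi.smul_apply, smul_eq_mul, Pi.zero_apply]
      exact h1 s τ) σ
  have h4 : ∀ p, c p * (p.1 lam * p.2 lam) - lam * c p = 0 := by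
    apply hind2
    intro s t
    have h5 := hk s t
    rw [hcB, hcB, Finset.mul_sum] at h5
    rw [← sub_eq_zero, ← Finset.sum_sub_distrib] at h5
    rw [← h5]
    apply Finset.sum_congr rfl
    intro p _
    rw [map_mul, map_mul]
    ring
  have h6 : ∀ p : (F ≃+* F) × (F ≃+* F), p.1 ≠ p.2 → c p = 0 := by
    intro p hp
    by_contra hcp
    apply hp
    apply h3
    have h7 := h4 p
    have h8 : c p * (p.1 lam * p.2 lam - lam) = 0 := by rw [← h7]; ring
    exact sub_eq_zero.1 ((mul_eq_zero.1 h8).resolve_left hcp)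
  have h7 : ∀ s t, B s t = ∑ σ : F ≃+* F, c (σ, σ) * σ (s * t) := by
    intro s t
    rw [hcB, Fintype.sum_prod_type]
    apply Finset.sum_congr rfl
    intro σ _
    rw [Finset.sum_eq_single σ]
    · show c (σ, σ) * (σ s * σ t) = _
      rw [map_mul]
    · intro τ _ hτ
      rw [h6 (σ, τ) (Ne.symm hτ), zero_mul]
    · intro hne; exact absurd (Finset.mem_univ _) hne
  have hsq := Cfsg.Agent.Suz2.exists_sqrt (F := F)
  have h8 : ∀ u, ∑ σ : F ≃+* F, c (σ, σ) * σ u = 0 := by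
    intro u
    obtain ⟨s, rfl⟩ := hsq u
    rw [← h7, halt]
  intro s t
  rw [h7, h8]

namespace ST.CD

variable {P K : Type*} [Group P] [Group K] [MulDistribMulAction K P] {h : ST P K}
  {F : Type*} [Field F] [CharP F 2] {π : P → F} {κ : K} {lam : F} (c : h.CD π κ lam)
include c

omit [CharP F 2] in
theorem fin : Finite F := by
  obtain ⟨n, _, hn⟩ := c.card
  apply Nat.finite_of_card_ne_zero
  rw [hn]; positivity

theorem inj {x y : P} (hx : x ∈ h.E) (hy : y ∈ h.E) (hxy : π x = π y) : x = y := by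
  have h1 : π (x * y) = 0 := by
    rw [c.add x hx y hy, hxy]
    exact CharTwo.add_self_eq_zero _
  have h2 := c.ker _ (h.E.mul_mem hx hy) h1
  have h3 := h.E_inv hy
  rw [mul_eq_one_iff_eq_inv, h3] at h2
  exact h2

omit [CharP F 2] in
theorem one : π 1 = 0 := by
  have := c.add 1 h.E.one_mem 1 h.E.one_mem
  rw [mul_one] at this
  exact left_eq_add.1 this

/-- inverse of the coordinate map -/
theorem exists_rho : ∃ ρ : F → P, (∀ s, ρ s ∈ h.E) ∧ (∀ s, π (ρ s) = s) ∧ (∀ x ∈ h.E, ρ (π x) = x) ∧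
    (∀ s t, ρ (s + t) = ρ s * ρ t) ∧ (∀ s, ρ (lam * s) = κ • ρ s) ∧ ρ 0 = 1 := by
  choose ρ hρE hρ using c.surj
  have hρadd : ∀ s t, ρ (s + t) = ρ s * ρ t := fun s t =>
    c.inj (hρE _) (h.E.mul_mem (hρE s) (hρE t)) (by rw [hρ, c.add _ (hρE s) _ (hρE t), hρ, hρ])
  refine ⟨ρ, hρE, hρ, fun x hx => c.inj (hρE _) hx (hρ _), hρadd, fun s =>
    c.inj (hρE _) (h.kinv_E κ _ (hρE s)) (by rw [hρ, c.kap _ (hρE s), hρ]), ?_⟩
  exact c.inj (hρE _) h.E.one_mem (by rw [hρ, c.one])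

/-- The Hua lemma on `E`. -/
theorem hua_E (b : P → P → P) (hmem : ∀ e ∈ h.E, ∀ f ∈ h.E, b e f ∈ h.E)
    (hl : ∀ e ∈ h.E, ∀ e' ∈ h.E, ∀ f ∈ h.E, b (e * e') f = b e f * b e' f)
    (hr : ∀ e ∈ h.E, ∀ f ∈ h.E, ∀ f' ∈ h.E, b e (f * f') = b e f * b e f')
    (halt : ∀ e ∈ h.E, b e e = 1)
    (hK : ∀ k : K, ∀ e ∈ h.E, ∀ f ∈ h.E, b (k • e) (k • f) = k • b e f) :
    ∀ e ∈ h.E, ∀ f ∈ h.E, b e f = 1 := by
  have hfF := c.fin
  obtain ⟨ρ, hρE, hρ, hρπ, hρadd, hρk, -⟩ := c.exists_rho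
  have key := hua_field c.n3 (fun s t => π (b (ρ s) (ρ t)))
    (fun s s' t => by
      show π (b (ρ (s + s')) (ρ t)) = _
      rw [hρadd, hl _ (hρE s) _ (hρE s') _ (hρE t), c.add _ (hmem _ (hρE s) _ (hρE t)) _ (hmem _ (hρE s') _ (hρE t))])
    (fun s t t' => by
      show π (b (ρ s) (ρ (t + t'))) = _
      rw [hρadd, hr _ (hρE s) _ (hρE t) _ (hρE t'), c.add _ (hmem _ (hρE s) _ (hρE t)) _ (hmem _ (hρE s) _ (hρE t'))])
    (fun s => by
      show π (b (ρ s) (ρ s)) = 0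
      rw [halt _ (hρE s), c.one])
    (fun s t => by
      show π (b (ρ (lam * s)) (ρ (lam * t))) = _
      rw [hρk, hρk, hK κ _ (hρE s) _ (hρE t), c.kap _ (hmem _ (hρE s) _ (hρE t))])
  intro e he f hf'
  have h1 := key (π e) (π f)
  simp only [hρπ e he, hρπ f hf'] at h1
  exact c.ker _ (hmem e he f hf') h1

end ST.CD

end Cfsg.Agent.Suz3
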