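import Cfsg.Agent.H21.SqAut

/-!
Number theory for the Suzuki 2-groups with a solvable operator group (S3776).
-/

set_option autoImplicit false

namespace Cfsg.Agent.Suz3

/-- uniqueness of `2^a + 2^b` -/
theorem two_pow_add_aux {a b c d : ℕ} (hab : a ≤ b) (hcd : c ≤ d) (hac : a ≤ c) (h : 2 ^ a + 2 ^ b = 2 ^ c + 2 ^ d) :
    a = c ∧ b = d := by
  obtain ⟨b', rfl⟩ := Nat.exists_eq_add_of_le hab
  obtain ⟨c', rfl⟩ := Nat.exists_eq_add_of_le hac
  obtain ⟨d', rfl⟩ := Nat.exists_eq_add_of_le (hac.trans hcd)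
  have h1 : 1 + 2 ^ b' = 2 ^ c' + 2 ^ d' := by
    have hp : 0 < 2 ^ a := Nat.pow_pos (by norm_num)
    apply Nat.eq_of_mul_eq_mul_left hp
    rw [pow_add, pow_add, pow_add] at h
    rw [mul_add, mul_add, mul_one]
    exact h
  have hcd' : c' ≤ d' := by omega
  rcases Nat.eq_zero_or_pos c' with rfl | hc'
  · rw [pow_zero] at h1
    have h2 : 2 ^ b' = 2 ^ d' := by omega
    have h3 := Nat.pow_right_injective (le_refl 2) h2
    omega
  · exfalso
    obtain ⟨c'', rfl⟩ := Nat.exists_eq_add_of_le hc'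
    obtain ⟨d'', rfl⟩ := Nat.exists_eq_add_of_le (le_trans (Nat.succ_le_of_lt hc') hcd')
    rcases Nat.eq_zero_or_pos b' with rfl | hb'
    · have h4 : 0 < 2 ^ c'' := Nat.pow_pos (by norm_num)
      have h5 : 0 < 2 ^ d'' := Nat.pow_pos (by norm_num)
      rw [pow_add, pow_add] at h1
      omega
    · obtain ⟨b'', rfl⟩ := Nat.exists_eq_add_of_le hb'
      rw [pow_add, pow_add, pow_add] at h1
      omega

theorem two_pow_add {a b c d : ℕ} (h : 2 ^ a + 2 ^ b = 2 ^ c + 2 ^ d) : (a = c ∧ b = d) ∨ (a = d ∧ b = c) := by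
  rcases le_total a b with h1 | h1 <;> rcases le_total c d with h2 | h2
  · rcases le_total a c with h3 | h3
    · have := two_pow_add_aux h1 h2 h3 h; omega
    · have := two_pow_add_aux h2 h1 h3 h.symm; omega
  · rcases le_total a d with h3 | h3
    · have := two_pow_add_aux h1 h2 h3 (by omega); omega
    · have := two_pow_add_aux h2 h1 h3 (by omega); omega
  · rcases le_total b c with h3 | h3
    · have := two_pow_add_aux h1 h2 h3 (by omega); omega
    · have := two_pow_add_aux h2 h1 h3 (by omega); omega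
  · rcases le_total b d with h3 | h3
    · have := two_pow_add_aux h1 h2 h3 (by omega); omega
    · have := two_pow_add_aux h2 h1 h3 (by omega); omega

/-- rotation of `Z/n` taking `x` to `0` -/
def rot (n x y : ℕ) : ℕ := if x ≤ y then y - x else n + y - x

theorem rot_of_le {n x y : ℕ} (h : x ≤ y) : rot n x y = y - x := if_pos h
theorem rot_of_lt {n x y : ℕ} (h : y < x) : rot n x y = n + y - x := if_neg (by omega)

theorem exists_gap_aux {n b c d : ℕ} (hb : b ≤ c) (hc : c ≤ d) (hd : d < n) :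
    ∃ x < n, 4 * rot n x 0 ≤ 3 * n ∧ 4 * rot n x b ≤ 3 * n ∧ 4 * rot n x c ≤ 3 * n ∧ 4 * rot n x d ≤ 3 * n := by
  by_cases h1 : n ≤ 4 * b
  · refine ⟨b, by omega, ?_, ?_, ?_, ?_⟩ <;> (unfold rot; split_ifs <;> omega)
  by_cases h2 : n ≤ 4 * (c - b)
  · refine ⟨c, by omega, ?_, ?_, ?_, ?_⟩ <;> (unfold rot; split_ifs <;> omega)
  by_cases h3 : n ≤ 4 * (d - c)
  · refine ⟨d, by omega, ?_, ?_, ?_, ?_⟩ <;> (unfold rot; split_ifs <;> omega)
  · refine ⟨0, by omega, ?_, ?_, ?_, ?_⟩ <;> (unfold rot; split_ifs <;> omega)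

theorem exists_gap {n b c d : ℕ} (hb : b < n) (hc : c < n) (hd : d < n) :
    ∃ x < n, 4 * rot n x 0 ≤ 3 * n ∧ 4 * rot n x b ≤ 3 * n ∧ 4 * rot n x c ≤ 3 * n ∧ 4 * rot n x d ≤ 3 * n := by
  rcases le_total b c with h1 | h1
  · rcases le_total c d with h2 | h2
    · exact exists_gap_aux h1 h2 hd
    · rcases le_total b d with h3 | h3
      · obtain ⟨x, hx, e0, e1, e2, e3⟩ := exists_gap_aux h3 h2 hc
        exact ⟨x, hx, e0, e1, e3, e2⟩
      · obtain ⟨x, hx, e0, e1, e2, e3⟩ := exists_gap_aux h3 h1 hc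
        exact ⟨x, hx, e0, e2, e3, e1⟩
  · rcases le_total b d with h2 | h2
    · obtain ⟨x, hx, e0, e1, e2, e3⟩ := exists_gap_aux h1 h2 hd
      exact ⟨x, hx, e0, e2, e1, e3⟩
    · rcases le_total c d with h3 | h3
      · obtain ⟨x, hx, e0, e1, e2, e3⟩ := exists_gap_aux h3 h2 hb
        exact ⟨x, hx, e0, e3, e1, e2⟩
      · obtain ⟨x, hx, e0, e1, e2, e3⟩ := exists_gap_aux h3 h1 hb
        exact ⟨x, hx, e0, e3, e2, e1⟩

theorem rot_inj {n x y z : ℕ} (hx : x < n) (hy : y < n) (hz : z < n) (h : rot n x y = rot n x z) : y = z := by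
  unfold rot at h
  split_ifs at h <;> omega

theorem two_pow_modEq (n : ℕ) : 2 ^ n ≡ 1 [MOD 2 ^ n - 1] := by
  have h : 1 ≤ 2 ^ n := Nat.one_le_two_pow
  exact ((Nat.modEq_iff_dvd' h).2 (dvd_refl _)).symm

theorem rot_modEq {n x y : ℕ} (hx : x < n) : 2 ^ (n - x) * 2 ^ y ≡ 2 ^ rot n x y [MOD 2 ^ n - 1] := by
  by_cases h : x ≤ y
  · rw [rot_of_le h, ← pow_add, show n - x + y = n + (y - x) by omega, pow_add]
    have := (two_pow_modEq n).mul_right (2 ^ (y - x))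
    rwa [one_mul] at this
  · rw [rot_of_lt (by omega), ← pow_add, show n - x + y = n + y - x by omega]

theorem six_le_pow {m : ℕ} (hm : 6 ≤ m) : 8 * m + 1 ≤ 2 ^ m := by
  induction m, hm using Nat.le_induction with
  | base => norm_num
  | succ m hm ih => rw [pow_succ]; omega

theorem core_big {n b c d : ℕ} (hn : 22 ≤ n) (hb : b < n) (hc : c < n) (hd : d < n)
    (h : n * (2 ^ b + 2 ^ c) ≡ n * (1 + 2 ^ d) [MOD 2 ^ n - 1]) : (b = 0 ∧ c = d) ∨ (b = d ∧ c = 0) := by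
  obtain ⟨x, hx, h0, hb', hc', hd'⟩ := exists_gap hb hc hd
  have h1 : n * (2 ^ rot n x b + 2 ^ rot n x c) ≡ n * (2 ^ rot n x 0 + 2 ^ rot n x d) [MOD 2 ^ n - 1] := by
    have e1 : n * (2 ^ (n - x) * 2 ^ b + 2 ^ (n - x) * 2 ^ c) ≡ n * (2 ^ rot n x b + 2 ^ rot n x c) [MOD 2 ^ n - 1] :=
      Nat.ModEq.mul_left _ ((rot_modEq hx).add (rot_modEq hx))
    have e2 : n * (2 ^ (n - x) * 2 ^ 0 + 2 ^ (n - x) * 2 ^ d) ≡ n * (2 ^ rot n x 0 + 2 ^ rot n x d) [MOD 2 ^ n - 1] :=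
      Nat.ModEq.mul_left _ ((rot_modEq hx).add (rot_modEq hx))
    have e3 := h.mul_left (2 ^ (n - x))
    have e4 : 2 ^ (n - x) * (n * (2 ^ b + 2 ^ c)) = n * (2 ^ (n - x) * 2 ^ b + 2 ^ (n - x) * 2 ^ c) := by ring
    have e5 : 2 ^ (n - x) * (n * (1 + 2 ^ d)) = n * (2 ^ (n - x) * 2 ^ 0 + 2 ^ (n - x) * 2 ^ d) := by ring
    rw [e4, e5] at e3
    exact e1.symm.trans (e3.trans e2)
  have hk : ∀ y, 4 * y ≤ 3 * n → 2 ^ y ≤ 2 ^ (3 * n / 4) := fun y hy => Nat.pow_le_pow_right (by norm_num) (by omega)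
  have hlt : n * (2 ^ (3 * n / 4) + 2 ^ (3 * n / 4)) < 2 ^ n - 1 := by
    obtain ⟨m, hm⟩ : ∃ m, n = 3 * n / 4 + m := ⟨n - 3 * n / 4, by omega⟩
    have hm4 : n ≤ 4 * m := by omega
    have hm6 : 6 ≤ m := by omega
    have h6 := six_le_pow hm6
    have h7 : 2 ^ n = 2 ^ (3 * n / 4) * 2 ^ m := by rw [← pow_add, ← hm]
    rw [h7]
    have h8 : 2 ^ (3 * n / 4) * (8 * m + 1) ≤ 2 ^ (3 * n / 4) * 2 ^ m := Nat.mul_le_mul_left _ h6
    have h9 : n * (2 ^ (3 * n / 4) + 2 ^ (3 * n / 4)) ≤ 2 ^ (3 * n / 4) * (8 * m) := by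
      calc n * (2 ^ (3 * n / 4) + 2 ^ (3 * n / 4)) = 2 ^ (3 * n / 4) * (2 * n) := by ring
        _ ≤ 2 ^ (3 * n / 4) * (8 * m) := Nat.mul_le_mul_left _ (by omega)
    have h10 : 2 ≤ 2 ^ (3 * n / 4) := by
      calc 2 = 2 ^ 1 := by norm_num
        _ ≤ 2 ^ (3 * n / 4) := Nat.pow_le_pow_right (by norm_num) (by omega)
    rw [mul_add, mul_one] at h8
    omega
  have h2 : n * (2 ^ rot n x b + 2 ^ rot n x c) = n * (2 ^ rot n x 0 + 2 ^ rot n x d) := by
    apply Nat.ModEq.eq_of_lt_of_lt h1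
    · exact lt_of_le_of_lt (Nat.mul_le_mul_left _ (Nat.add_le_add (hk _ hb') (hk _ hc'))) hlt
    · exact lt_of_le_of_lt (Nat.mul_le_mul_left _ (Nat.add_le_add (hk _ h0) (hk _ hd'))) hlt
  have h3 := Nat.eq_of_mul_eq_mul_left (by omega) h2
  rcases two_pow_add h3 with ⟨h4, h5⟩ | ⟨h4, h5⟩
  · left; exact ⟨rot_inj hx hb (by omega) h4, rot_inj hx hc hd h5⟩
  · right; exact ⟨rot_inj hx hb hd h4, rot_inj hx hc (by omega) h5⟩

/-- finite check -/
def chk3 (n : ℕ) : Bool :=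
  (List.range n).all fun i => (List.range n).all fun j =>
    !(Nat.beq (n * (2 ^ i + 2 ^ j) % (2 ^ n - 1)) (n % (2 ^ n - 1))) || Nat.beq i j

/-- finite check -/
def chk4 (n : ℕ) : Bool :=
  (List.range n).all fun i => (List.range n).all fun j => (List.range n).all fun i' =>
      !(Nat.beq (n * (2 ^ j + 2 ^ i') % (2 ^ n - 1)) (n * (1 + 2 ^ ((i + j) % n)) % (2 ^ n - 1))) || Nat.beq i i'

theorem chk_all : ((List.range 22).all fun n => Nat.ble n 1 || (chk3 n && chk4 n)) = true := by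
  decide +kernel

theorem chk_n {n : ℕ} (h2 : 2 ≤ n) (hn : n < 22) : chk3 n = true ∧ chk4 n = true := by
  have h := (List.all_eq_true.1 chk_all) n (List.mem_range.2 hn)
  rw [Bool.or_eq_true, Bool.and_eq_true] at h
  rcases h with h | h
  · have := Nat.le_of_ble_eq_true h
    omega
  · exact h

theorem core3 {n i j : ℕ} (h2 : 2 ≤ n) (hi : i < n) (hj : j < n) (h : n * (2 ^ i + 2 ^ j) ≡ n [MOD 2 ^ n - 1]) : i = j := by
  rcases Nat.lt_or_ge n 22 with hn | hn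
  · have h1 := (chk_n h2 hn).1
    unfold chk3 at h1
    rw [List.all_eq_true] at h1
    have h3 := h1 i (List.mem_range.2 hi)
    rw [List.all_eq_true] at h3
    have h4 := h3 j (List.mem_range.2 hj)
    rw [Bool.or_eq_true, Bool.not_eq_true'] at h4
    rcases h4 with h4 | h4
    · exact absurd h (Nat.ne_of_beq_eq_false h4)
    · exact Nat.eq_of_beq_eq_true h4
  · -- multiply by two
    have h1 := h.mul_left 2
    have key : ∀ i, i < n → ∃ b < n, 2 * 2 ^ i ≡ 2 ^ b [MOD 2 ^ n - 1] ∧ (b = 0 → i = n - 1) := by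
      intro i hi
      rcases Nat.lt_or_ge (i + 1) n with h5 | h5
      · exact ⟨i + 1, h5, by rw [pow_succ, mul_comm], by omega⟩
      · refine ⟨0, by omega, ?_, by omega⟩
        have : i + 1 = n := by omega
        rw [mul_comm, ← pow_succ, this, pow_zero]
        exact two_pow_modEq n
    obtain ⟨b, hb, e1, e2⟩ := key i hi
    obtain ⟨c, hc, e3, e4⟩ := key j hj
    have h3 : n * (2 ^ b + 2 ^ c) ≡ n * (1 + 2 ^ 0) [MOD 2 ^ n - 1] := by
      have h6 : n * (2 * 2 ^ i + 2 * 2 ^ j) ≡ n * (2 ^ b + 2 ^ c) [MOD 2 ^ n - 1] := Nat.ModEq.mul_left _ (e1.add e3)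
      have h7 : 2 * (n * (2 ^ i + 2 ^ j)) = n * (2 * 2 ^ i + 2 * 2 ^ j) := by ring
      have h8 : 2 * n = n * (1 + 2 ^ 0) := by ring
      rw [h7, h8] at h1
      exact h6.symm.trans h1
    rcases core_big hn hb hc (by omega) h3 with h4 | h4 <;> omega

theorem core4 {n i j i' : ℕ} (h2 : 2 ≤ n) (hi : i < n) (hj : j < n) (hi' : i' < n)
    (h : n * (2 ^ j + 2 ^ i') ≡ n * (1 + 2 ^ ((i + j) % n)) [MOD 2 ^ n - 1]) : i = i' := by
  rcases Nat.lt_or_ge n 22 with hn | hn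
  · have h1 := (chk_n h2 hn).2
    unfold chk4 at h1
    rw [List.all_eq_true] at h1
    have h3 := h1 i (List.mem_range.2 hi)
    rw [List.all_eq_true] at h3
    have h4 := h3 j (List.mem_range.2 hj)
    rw [List.all_eq_true] at h4
    have h5 := h4 i' (List.mem_range.2 hi')
    rw [Bool.or_eq_true, Bool.not_eq_true'] at h5
    rcases h5 with h5 | h5
    · exact absurd h (Nat.ne_of_beq_eq_false h5)
    · exact Nat.eq_of_beq_eq_true h5
  · have h6 : (i + j) % n < n := Nat.mod_lt _ (by omega)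
    have h7 : (i + j) % n = if i + j < n then i + j else i + j - n := by
      split_ifs with h8
      · exact Nat.mod_eq_of_lt h8
      · rw [Nat.mod_eq_sub_mod (by omega), Nat.mod_eq_of_lt (by omega)]
    rcases core_big hn hj hi' h6 h with h4 | h4 <;> (rw [h7] at h4; split_ifs at h4 <;> omega)

section field

variable {F : Type*} [Field F] [Finite F] [CharP F 2] {n : ℕ} (hn : 2 ≤ n) (hF : Nat.card F = 2 ^ n) {lam : F}
  (hlam : lam ≠ 0) (hord : (2 ^ n - 1) ∣ n * orderOf lam)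

include hn hF hlam hord

theorem n3 (σ τ : F ≃+* F) (h : σ lam * τ lam = lam) : σ = τ := by
  obtain ⟨i, hi, hσ⟩ := H21.Sq.aut_pow hF σ
  obtain ⟨j, hj, hτ⟩ := H21.Sq.aut_pow hF τ
  have hfo : IsOfFinOrder (Units.mk0 lam hlam) := isOfFinOrder_of_finite _
  have ho : orderOf (Units.mk0 lam hlam) = orderOf lam := by
    rw [← orderOf_units]; rfl
  rw [hσ, hτ, ← pow_add] at h
  have h1 : (Units.mk0 lam hlam) ^ (2 ^ i + 2 ^ j) = (Units.mk0 lam hlam) ^ 1 := by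
    apply Units.ext
    simpa using h
  rw [pow_eq_pow_iff_modEq, ho] at h1
  have h2 : n * (2 ^ i + 2 ^ j) ≡ n [MOD 2 ^ n - 1] := by
    have h3 := (Nat.ModEq.mul_left' n h1).of_dvd hord
    rwa [mul_one] at h3
  have h3 := core3 hn hi hj h2
  apply RingEquiv.ext
  intro x
  rw [hσ, hτ, h3]

theorem n4 (σ σ' ρ : F ≃+* F) (h : ρ lam * σ' lam = lam * ρ (σ lam)) : σ = σ' := by
  obtain ⟨i, hi, hσ⟩ := H21.Sq.aut_pow hF σ
  obtain ⟨i', hi', hσ'⟩ := H21.Sq.aut_pow hF σ'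
  obtain ⟨j, hj, hρ⟩ := H21.Sq.aut_pow hF ρ
  have ho : orderOf (Units.mk0 lam hlam) = orderOf lam := by
    rw [← orderOf_units]; rfl
  rw [hσ, hσ', hρ, hρ, ← pow_add, ← pow_mul, ← pow_add, ← pow_succ'] at h
  have h1 : (Units.mk0 lam hlam) ^ (2 ^ j + 2 ^ i') = (Units.mk0 lam hlam) ^ (2 ^ (i + j) + 1) := by
    apply Units.ext
    simpa using h
  rw [pow_eq_pow_iff_modEq, ho] at h1
  have hmod : 2 ^ (i + j) ≡ 2 ^ ((i + j) % n) [MOD 2 ^ n - 1] := by
    conv_lhs => rw [← Nat.mod_add_div (i + j) n, pow_add, pow_mul]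
    have h5 := ((two_pow_modEq n).pow ((i + j) / n)).mul_left (2 ^ ((i + j) % n))
    rwa [one_pow, mul_one] at h5
  have h2 : n * (2 ^ j + 2 ^ i') ≡ n * (1 + 2 ^ ((i + j) % n)) [MOD 2 ^ n - 1] := by
    have h3 := (Nat.ModEq.mul_left' n h1).of_dvd hord
    refine h3.trans ?_
    rw [add_comm]
    exact Nat.ModEq.mul_left _ (Nat.ModEq.add_left _ hmod)
  have h3 := core4 hn hi hj hi' h2
  apply RingEquiv.ext
  intro x
  rw [hσ, hσ', h3]

end field

end Cfsg.Agent.Suz3
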