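import Mathlib

namespace Cfsg.Agent.Suz3

theorem ns_arith {n w k : ℕ} (hn : 2 ≤ n) (hw : 1 ≤ w) (hk : 1 ≤ k)
    (h : (2 ^ w - 1) * (2 ^ k - 1) = 2 ^ n - 1) : w = 1 ∨ k = 1 := by
  by_contra hcon
  push Not at hcon
  obtain ⟨w', rfl⟩ : ∃ w', w = w' + 2 := ⟨w - 2, by omega⟩
  obtain ⟨k', rfl⟩ : ∃ k', k = k' + 2 := ⟨k - 2, by omega⟩
  obtain ⟨n', rfl⟩ : ∃ n', n = n' + 2 := ⟨n - 2, by omega⟩
  have e1 : 2 ^ (w' + 2) - 1 = 4 * (2 ^ w' - 1) + 3 := by
    have := Nat.one_le_two_pow (n := w')
    rw [pow_add]; omega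
  have e2 : 2 ^ (k' + 2) - 1 = 4 * (2 ^ k' - 1) + 3 := by
    have := Nat.one_le_two_pow (n := k')
    rw [pow_add]; omega
  have e3 : 2 ^ (n' + 2) - 1 = 4 * (2 ^ n' - 1) + 3 := by
    have := Nat.one_le_two_pow (n := n')
    rw [pow_add]; omega
  rw [e1, e2, e3] at h
  generalize 2 ^ w' - 1 = a at h
  generalize 2 ^ k' - 1 = b at h
  generalize 2 ^ n' - 1 = c at h
  have : (4 * a + 3) * (4 * b + 3) = 4 * (4 * a * b + 3 * a + 3 * b + 2) + 1 := by ring
  rw [this] at h
  omega

/-- If the nonzero elements of the additive subgroup `C` are exactly the quotients `v / σ v`,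
then `C` is everything and `σ` fixes only `0` and `1`. -/
theorem norm_set {F : Type*} [Field F] [Finite F] {n : ℕ} (hn : 2 ≤ n)
    (hF : Nat.card F = 2 ^ n) (σ : F ≃+* F) (hσ : σ ≠ RingEquiv.refl F) (C : AddSubgroup F)
    (h1 : ∀ v : F, v ≠ 0 → v / σ v ∈ C)
    (h2 : ∀ c ∈ C, c ≠ 0 → ∃ v : F, v ≠ 0 ∧ c = v / σ v) :
    (∀ c : F, c ∈ C) ∧ ∀ v : F, σ v = v → v = 0 ∨ v = 1 := by
  classical
  let u : Fˣ →* Fˣ := Units.map (σ : F →* F)
  let f : Fˣ →* Fˣ :=
    { toFun := fun v => v / u v
      map_one' := by simp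
      map_mul' := fun a b => by
        rw [map_mul]; exact mul_div_mul_comm a b (u a) (u b) }
  have hf : ∀ v : Fˣ, ((f v : Fˣ) : F) = (v : F) / σ (v : F) := by
    intro v
    change (((v / u v : Fˣ)) : F) = _
    rw [Units.val_div_eq_div_val]
    rfl
  -- the fixed points
  let K : AddSubgroup F :=
    { carrier := {v | σ v = v}
      zero_mem' := map_zero σ
      add_mem' := fun {a b} ha hb => by
        change σ (a + b) = a + b
        rw [map_add]; exact congrArg₂ _ ha hb
      neg_mem' := fun {a} ha => by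
        change σ (-a) = -a
        rw [map_neg]; exact congrArg _ ha }
  have hKmem : ∀ v : F, v ∈ K ↔ σ v = v := fun v => Iff.rfl
  -- cards
  have hKd : Nat.card K ∣ 2 ^ n := hF ▸ AddSubgroup.card_addSubgroup_dvd_card K
  have hCd : Nat.card C ∣ 2 ^ n := hF ▸ AddSubgroup.card_addSubgroup_dvd_card C
  obtain ⟨k, hk, hKc⟩ := (Nat.dvd_prime_pow Nat.prime_two).1 hKd
  obtain ⟨w, hw, hCc⟩ := (Nat.dvd_prime_pow Nat.prime_two).1 hCd
  -- kernel
  have hker : Nat.card f.ker = Nat.card K - 1 := by
    have e : f.ker ≃ {x : K // x ≠ 0} :=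
      { toFun := fun v => ⟨⟨(v : Fˣ), by
          have h := v.2
          rw [MonoidHom.mem_ker] at h
          have h' := hf (v : Fˣ)
          rw [h, Units.val_one] at h'
          have hne : σ ((v : Fˣ) : F) ≠ 0 := by
            intro h0
            exact (v : Fˣ).ne_zero ((map_eq_zero σ).1 h0)
          rw [hKmem]
          rw [eq_div_iff hne, one_mul] at h'
          exact h'⟩, by
            intro h0
            exact (v : Fˣ).ne_zero (congrArg Subtype.val h0)⟩
        invFun := fun x => ⟨Units.mk0 (x.1 : F) (fun h0 => x.2 (Subtype.ext h0)), by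
          rw [MonoidHom.mem_ker]
          ext
          rw [hf]
          have h0 : (x.1 : F) ≠ 0 := fun h0 => x.2 (Subtype.ext h0)
          have hx : σ (x.1 : F) = x.1 := x.1.2
          rw [Units.val_mk0, hx, div_self h0, Units.val_one]⟩
        left_inv := fun v => by
          apply Subtype.ext; ext; rfl
        right_inv := fun x => by
          apply Subtype.ext; apply Subtype.ext; rfl }
    rw [Nat.card_congr e]
    haveI : Fintype K := Fintype.ofFinite _
    rw [Nat.card_eq_fintype_card, Nat.card_eq_fintype_card]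
    rw [Fintype.card_subtype_compl]
    simp
  have hrange : Nat.card f.range = Nat.card C - 1 := by
    have e : f.range ≃ {x : C // x ≠ 0} :=
      { toFun := fun v => ⟨⟨((v : Fˣ) : F), by
          obtain ⟨a, ha⟩ := v.2
          rw [← ha, hf]
          exact h1 _ a.ne_zero⟩, by
            intro h0
            exact (v : Fˣ).ne_zero (congrArg Subtype.val h0)⟩
        invFun := fun x => ⟨Units.mk0 (x.1 : F) (fun h0 => x.2 (Subtype.ext h0)), by
          have h0 : (x.1 : F) ≠ 0 := fun h0 => x.2 (Subtype.ext h0)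
          obtain ⟨v, hv, hc⟩ := h2 (x.1 : F) x.1.2 h0
          refine ⟨Units.mk0 v hv, ?_⟩
          ext
          rw [hf, Units.val_mk0, Units.val_mk0, hc]⟩
        left_inv := fun v => by
          apply Subtype.ext; ext; rfl
        right_inv := fun x => by
          apply Subtype.ext; apply Subtype.ext; rfl }
    rw [Nat.card_congr e]
    haveI : Fintype C := Fintype.ofFinite _
    rw [Nat.card_eq_fintype_card, Nat.card_eq_fintype_card]
    rw [Fintype.card_subtype_compl]
    simp
  have hunits : Nat.card Fˣ = 2 ^ n - 1 := by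
    rw [Nat.card_units, hF]
  have hmul : (2 ^ w - 1) * (2 ^ k - 1) = 2 ^ n - 1 := by
    rw [← hCc, ← hKc, ← hker, ← hrange, ← hunits]
    have h3 := Subgroup.card_mul_index f.ker
    rw [Subgroup.index_ker] at h3
    rw [mul_comm]; exact h3
  have hK1 : (1 : F) ∈ K := map_one σ
  have hC1 : (1 : F) ∈ C := by
    have := h1 1 one_ne_zero
    rwa [map_one, div_one] at this
  have hk1 : 1 ≤ k := by
    by_contra h
    have hk0 : k = 0 := by omega
    rw [hk0, pow_zero] at hKc
    rw [AddSubgroup.card_eq_one] at hKc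
    rw [hKc, AddSubgroup.mem_bot] at hK1
    exact one_ne_zero hK1
  have hw1 : 1 ≤ w := by
    by_contra h
    have hw0 : w = 0 := by omega
    rw [hw0, pow_zero] at hCc
    rw [AddSubgroup.card_eq_one] at hCc
    rw [hCc, AddSubgroup.mem_bot] at hC1
    exact one_ne_zero hC1
  rcases ns_arith hn hw1 hk1 hmul with h | h
  · -- w = 1
    exfalso
    rw [h] at hmul
    have h4 : 2 ^ k = 2 ^ n := by
      have a1 := Nat.one_le_two_pow (n := k)
      have a2 := Nat.one_le_two_pow (n := n)
      omega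
    have h5 : K = ⊤ := by
      apply AddSubgroup.eq_top_of_card_eq
      rw [hKc, h4, hF]
    apply hσ
    ext v
    have : v ∈ K := h5 ▸ AddSubgroup.mem_top v
    exact this
  · -- k = 1
    rw [h] at hmul
    have h4 : 2 ^ w = 2 ^ n := by
      have a1 := Nat.one_le_two_pow (n := w)
      have a2 := Nat.one_le_two_pow (n := n)
      omega
    have h5 : C = ⊤ := by
      apply AddSubgroup.eq_top_of_card_eq
      rw [hCc, h4, hF]
    refine ⟨fun c => h5 ▸ AddSubgroup.mem_top c, ?_⟩
    intro v hv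
    by_contra hcon
    push Not at hcon
    have hKc2 : Nat.card K = 2 := by rw [hKc, h]; rfl
    rw [Nat.card_eq_two_iff' (⟨0, K.zero_mem⟩ : K)] at hKc2
    obtain ⟨y, hy, huniq⟩ := hKc2
    have e1 := huniq ⟨1, hK1⟩ (fun h0 => one_ne_zero (congrArg Subtype.val h0))
    have e2 := huniq ⟨v, hv⟩ (fun h0 => hcon.1 (congrArg Subtype.val h0))
    exact hcon.2 (congrArg Subtype.val (e2.trans e1.symm))

end Cfsg.Agent.Suz3
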