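import Cfsg.Agent.Suz2.Dedekind

/-! A group of additive endomorphisms of a finite field of characteristic 2 closed under
`T ↦ lam T (lam⁻¹ ·)`, with `lam` having separated weights, contains a "monomial" map `c σ`. -/

set_option autoImplicit false

namespace Cfsg.Agent.Suz3

open Polynomial

theorem single {F : Type*} [Field F] [Finite F] [CharP F 2] {lam : F} (hlam : lam ≠ 0)
    (h4 : ∀ σ σ' ρ : F ≃+* F, ρ lam * σ' lam = lam * ρ (σ lam) → σ = σ')
    (D : AddSubgroup (F →+ F))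
    (hD : ∀ T ∈ D, ∀ T' : F →+ F, (∀ t, T' (lam * t) = lam * T t) → T' ∈ D)
    {T : F →+ F} (hT : T ∈ D) (hT0 : T ≠ 0) :
    ∃ (σ : F ≃+* F) (c : F), c ≠ 0 ∧ ∃ T' ∈ D, ∀ t, T' t = c * σ t := by
  classical
  have _ : Finite (F ≃+* F) := Suz2.finite_aut F
  let _ : Fintype (F ≃+* F) := Fintype.ofFinite _
  let _ : Algebra (ZMod 2) F := ZMod.algebra F 2
  obtain ⟨c, hc⟩ := Suz2.add_expand T
  have hpow : ∀ n : ℕ, ∃ T' ∈ D, ∀ t, T' t = ∑ σ : F ≃+* F, (lam / σ lam) ^ n * c σ * σ t := by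
    intro n
    induction n with
    | zero => exact ⟨T, hT, fun t => by simp [hc]⟩
    | succ n ih =>
      obtain ⟨T1, hT1, h1⟩ := ih
      refine ⟨(AddMonoidHom.mulLeft lam).comp (T1.comp (AddMonoidHom.mulLeft lam⁻¹)), ?_, ?_⟩
      · refine hD T1 hT1 _ fun t => ?_
        simp [hlam]
      · intro t
        have h2 : ((AddMonoidHom.mulLeft lam).comp (T1.comp (AddMonoidHom.mulLeft lam⁻¹))) t =
            lam * T1 (lam⁻¹ * t) := rfl
        rw [h2, h1, Finset.mul_sum]
        refine Finset.sum_congr rfl fun σ _ => ?_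
        have h3 : σ lam ≠ 0 := by simpa using hlam
        rw [map_mul, map_inv₀, pow_succ]
        field_simp
  have hpoly : ∀ p : (ZMod 2)[X], ∃ T' ∈ D, ∀ t, T' t =
      ∑ σ : F ≃+* F, aeval (lam / σ lam) p * c σ * σ t := by
    intro p
    induction p using Polynomial.induction_on' with
    | add p q hp hq =>
      obtain ⟨T1, hT1, h1⟩ := hp
      obtain ⟨T2, hT2, h2⟩ := hq
      refine ⟨T1 + T2, D.add_mem hT1 hT2, fun t => ?_⟩
      rw [AddMonoidHom.add_apply, h1, h2, ← Finset.sum_add_distrib]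
      refine Finset.sum_congr rfl fun σ _ => ?_
      rw [map_add]; ring
    | monomial n a =>
      obtain ⟨T1, hT1, h1⟩ := hpow n
      have ha : a = 0 ∨ a = 1 := by
        revert a; decide
      rcases ha with rfl | rfl
      · exact ⟨0, D.zero_mem, fun t => by simp⟩
      · refine ⟨T1, hT1, fun t => ?_⟩
        rw [h1]
        refine Finset.sum_congr rfl fun σ _ => ?_
        rw [aeval_monomial, map_one, one_mul]
  -- some coefficient is nonzero
  obtain ⟨σ0, hσ0⟩ : ∃ σ0, c σ0 ≠ 0 := by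
    by_contra hcon
    push Not at hcon
    apply hT0
    ext t
    rw [hc]
    simp [hcon]
  obtain ⟨T', hT', h'⟩ := hpoly (∏ σ ∈ Finset.univ.erase σ0, minpoly (ZMod 2) (lam / σ lam))
  refine ⟨σ0, aeval (lam / σ0 lam) (∏ σ ∈ Finset.univ.erase σ0,
    minpoly (ZMod 2) (lam / σ lam)) * c σ0, mul_ne_zero ?_ hσ0, T', hT', fun t => ?_⟩
  · rw [map_prod, Finset.prod_ne_zero_iff]
    intro σ hσ h0
    have hne : σ ≠ σ0 := (Finset.mem_erase.1 hσ).1
    have hint : IsIntegral (ZMod 2) (lam / σ lam) := Algebra.IsIntegral.isIntegral _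
    have _ : FiniteDimensional (ZMod 2) F := inferInstance
    have _ : Normal (ZMod 2) F := inferInstance
    have hcj : IsConjRoot (ZMod 2) (lam / σ lam) (lam / σ0 lam) :=
      (isConjRoot_iff_aeval_eq_zero hint).2 h0
    obtain ⟨ρ, hρ⟩ := (isConjRoot_iff_exists_algEquiv).1 hcj.symm
    apply hne
    apply h4 σ σ0 ρ.toRingEquiv
    show ρ lam * σ0 lam = lam * ρ (σ lam)
    have h5 : ρ (lam / σ lam) = ρ lam / ρ (σ lam) := map_div₀ ρ _ _
    have h6 : σ0 lam ≠ 0 := by simpa using hlam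
    have h7 : ρ (σ lam) ≠ 0 := by simpa using hlam
    have h8 : lam / σ0 lam = ρ lam / ρ (σ lam) := by
      rw [← h5]
      exact hρ.symm
    rw [div_eq_div_iff h6 h7] at h8
    rw [h8]
  · rw [h']
    rw [Finset.sum_eq_single σ0]
    · intro σ _ hσ
      have : aeval (lam / σ lam) (∏ σ ∈ Finset.univ.erase σ0,
          minpoly (ZMod 2) (lam / σ lam)) = 0 := by
        rw [map_prod]
        exact Finset.prod_eq_zero (Finset.mem_erase.2 ⟨hσ, Finset.mem_univ _⟩) (minpoly.aeval _ _)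
      rw [this]; simp
    · intro h; exact absurd (Finset.mem_univ _) h

end Cfsg.Agent.Suz3
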