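import Mathlib

/-! Piece T5 of S3776: `v ↦ v / σ v` with an additive inverse forces `σ t ^ 2 = t`. -/

set_option autoImplicit false

namespace Cfsg.Agent.Suz3

/-- `r v = v / σ v` is additive, so `(v + 1) / (σ v + 1) = v / σ v + 1`, i.e. `(σ v)² = v`. -/
theorem sqrt_of {F : Type*} [Field F] [Finite F] [CharP F 2] {n : ℕ} (_hn : 2 ≤ n)
    (_hF : Nat.card F = 2 ^ n) (σ : F ≃+* F) (g : F →+ F) (hg : ∀ v : F, v ≠ 0 → g (v / σ v) = v)
    (hsurj : ∀ c : F, c ≠ 0 → ∃ v : F, v ≠ 0 ∧ c = v / σ v) : ∀ t : F, σ t * σ t = t := by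
  intro t
  have hchar : ∀ x : F, x + x = 0 := fun x => CharTwo.add_self_eq_zero x
  have hinj : ∀ x : F, g x = 0 → x = 0 := by
    intro x hx
    by_contra hne
    obtain ⟨v, hv, rfl⟩ := hsurj x hne
    rw [hg v hv] at hx
    exact hv hx
  by_cases ht0 : t = 0
  · rw [ht0, map_zero, mul_zero]
  by_cases ht1 : t + 1 = 0
  · have : t = 1 := by
      have h1 := hchar 1
      calc t = t + (1 + 1) := by rw [h1, add_zero]
        _ = (t + 1) + 1 := by ring
        _ = 1 := by rw [ht1, zero_add]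
    rw [this, map_one, mul_one]
  have hg1 : g 1 = 1 := by
    have := hg 1 one_ne_zero
    rwa [map_one, div_one] at this
  have h1 := hg t ht0
  have h2 := hg (t + 1) ht1
  have hσ0 : σ t ≠ 0 := (map_ne_zero σ).2 ht0
  have hσ1 : σ t + 1 ≠ 0 := by
    have := (map_ne_zero σ).2 ht1
    rwa [map_add, map_one] at this
  rw [map_add, map_one] at h2
  have h3 : g ((t + 1) / (σ t + 1) - (t / σ t + 1)) = 0 := by
    rw [map_sub, map_add, h1, h2, hg1, sub_self]
  have h4 := sub_eq_zero.1 (hinj _ h3)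
  have h5 : (t + 1) * σ t = (t + σ t) * (σ t + 1) := by
    field_simp at h4
    linear_combination h4
  have h7 := hchar t
  linear_combination (-1 : F) * h5 - h7

end Cfsg.Agent.Suz3
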