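import Mathlib
import Cfsg.Agent.Suz3.Four
import Cfsg.Agent.Suz3.N34
import Cfsg.Agent.Suz3.Single
import Cfsg.Agent.Suz3.NormSet
import Cfsg.Agent.Suz3.SqrtOf

/-! The self-centralizing homocyclic subgroup of exponent 4: an invariant subgroup whose elements have
fourth power one and commute with everything modulo `E`. -/

set_option autoImplicit false

namespace Cfsg.Agent.Suz3

open Cfsg.Agent.Suz2 (KInv cm HC Good mid kinv_mid normal_mid le_mid exists_mem_mid act_eq_one_iff exists_inv_mem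
  cm_smul cm_eq_one mul_eq_cm cm_mul_left cm_mul_right conj_eq_mul_cm cm_self cm_one_left cm_inv_comm)

variable {P K : Type*} [Group P] [Group K] [MulDistribMulAction K P]

/-- the operators in coordinates -/
structure TD {h : ST P K} {A : Subgroup P} (H : Four h A) {F : Type*} [Field F] (π : P → F)
    (ρ : F → P) (D : P → P → P) (T : P → F →+ F) : Prop where
  Dw : ∀ a ∈ A, ∀ y, D y (a * a) = cm a y
  DE : ∀ y, ∀ e ∈ h.E, D y e ∈ h.E
  Da : ∀ y, ∀ e ∈ h.E, ∀ f ∈ h.E, D y (e * f) = D y e * D y f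
  Dm : ∀ y z, ∀ e ∈ h.E, D (y * z) e = D y e * D z e
  Dk : ∀ k : K, ∀ y, ∀ e ∈ h.E, D (k • y) (k • e) = k • D y e
  DA : ∀ a ∈ A, ∀ e ∈ h.E, D a e = 1
  D1 : ∀ x y : P, D y (x ^ 4) = (cm x y * cm x y) * D x (cm x y * cm x y)
  D2 : ∀ x : P, D x (x ^ 4) = 1
  ρE : ∀ s, ρ s ∈ h.E
  πρ : ∀ s, π (ρ s) = s
  ρπ : ∀ x ∈ h.E, ρ (π x) = x
  T_eq : ∀ y t, T y t = π (D y (ρ t))

namespace Four

variable {h : ST P K} {A : Subgroup P} (H : Four h A) {F : Type*} [Field F] [CharP F 2] {π : P → F}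
  {κ : K} {lam : F} (c : h.CD π κ lam)
include H c

theorem exists_TD : ∃ (ρ : F → P) (D : P → P → P) (T : P → F →+ F), TD H π ρ D T := by
  obtain ⟨ρ, hρE, hρ, hρπ, hρadd, hρk, hρ0⟩ := c.exists_rho
  obtain ⟨D, hDw, hDE, hDa, hDm, hDk, hDA, hD1, hD2⟩ := H.exists_D
  refine ⟨ρ, D, fun y => AddMonoidHom.mk' (fun t => π (D y (ρ t))) (fun s t => ?_),
    ⟨hDw, hDE, hDa, hDm, hDk, hDA, hD1, hD2, hρE, hρ, hρπ, fun y t => rfl⟩⟩
  rw [hρadd, hDa y _ (hρE s) _ (hρE t), c.add _ (hDE y _ (hρE s)) _ (hDE y _ (hρE t))]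

end Four

namespace TD

variable {h : ST P K} {A : Subgroup P} {H : Four h A} {F : Type*} [Field F] [CharP F 2] {π : P → F}
  {κ : K} {lam : F} (c : h.CD π κ lam) {ρ : F → P} {D : P → P → P} {T : P → F →+ F} (d : TD H π ρ D T)
include c d

theorem T_mul (y z : P) : T (y * z) = T y + T z := by
  ext t
  rw [AddMonoidHom.add_apply, d.T_eq, d.T_eq, d.T_eq, d.Dm y z _ (d.ρE t),
    c.add _ (d.DE y _ (d.ρE t)) _ (d.DE z _ (d.ρE t))]

theorem T_one : T 1 = 0 := by
  have := T_mul c d 1 1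
  rw [mul_one] at this
  exact left_eq_add.1 this

theorem T_inv (y : P) : T y⁻¹ = T y := by
  have h1 := T_mul c d y y⁻¹
  rw [mul_inv_cancel, T_one c d] at h1
  ext t
  have h2 := congrArg (fun f : F →+ F => f t) h1
  have h3 : 0 = T y t + T y⁻¹ t := h2
  exact ((CharTwo.add_eq_zero).1 h3.symm).symm

omit [CharP F 2] in
/-- value on the image of an element of `E` -/
theorem T_pi (y : P) {e : P} (he : e ∈ h.E) : T y (π e) = π (D y e) := by
  rw [d.T_eq, d.ρπ e he]

omit [CharP F 2] in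
theorem T_smul (k : K) {a : F} {θ : F ≃+* F} (hk : ∀ x ∈ h.E, π (k • x) = a * θ (π x)) (y : P) (t : F) :
    T (k • y) (a * θ t) = a * θ (T y t) := by
  obtain ⟨e, he, rfl⟩ := c.surj t
  rw [← hk e he, T_pi c d _ (h.kinv_E k e he), d.Dk k y e he, hk _ (d.DE y e he), T_pi c d y he]

theorem T_zero {y : P} (hy : T y = 0) : y ∈ A := by
  apply H.mem_of_central
  intro a ha
  rw [← d.Dw a ha y]
  apply c.ker _ (d.DE y _ (H.sq_mem ha))
  rw [← T_pi c d y (H.sq_mem ha), hy]
  rfl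

omit [CharP F 2] in
theorem T_A {y : P} (hy : y ∈ A) : T y = 0 := by
  ext t
  rw [d.T_eq, d.DA y hy _ (d.ρE t), c.one]
  rfl

theorem T_eq_mod {y z : P} (hyz : T y = T z) : y⁻¹ * z ∈ A := by
  apply T_zero c d
  rw [T_mul c d, T_inv c d, hyz]
  ext t
  exact CharTwo.add_self_eq_zero _

/-- no element acts as the identity operator -/
theorem no_one (y : P) : ¬ ∀ t, T y t = t := by
  intro hy
  refine h.no_id (M := ⊤) (fun k x _ => Subgroup.mem_top _) D (fun y _ e he => d.DE y e he)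
    (fun y _ z _ e he => d.Dm y z e he) (fun k y _ e he => d.Dk k y e he) ?_ ?_ y (Subgroup.mem_top _) ?_
  · intro z _ hz
    have h1 := d.D2 z
    rw [hz _ (H.pow4E z)] at h1
    rw [h.mem_E, ← Four.pow4]; exact h1
  · intro z hz _ e he
    exact d.DA z (H.E_le hz) e he
  · intro e he
    apply c.inj (d.DE y e he) he
    rw [← T_pi c d y he, hy]

/-- each element outside `A` with fourth power one has a nontrivial fixed vector -/
theorem exists_fix {x : P} (hxA : x ∉ A) (h4 : x ^ 4 = 1) : ∃ t : F, t ≠ 0 ∧ T x t = t := by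
  have hf := h.fin
  have hone : ∀ y, D y 1 = 1 := by
    intro y
    have := d.Da y 1 h.E.one_mem 1 h.E.one_mem
    rw [mul_one] at this
    exact left_eq_mul.1 this
  have hex : ∃ u ∈ h.E, u ≠ 1 ∧ D x u = u := by
    by_contra hcon
    push Not at hcon
    let f : h.E →* h.E :=
      { toFun := fun u => ⟨u.1 * D x u.1, h.E.mul_mem u.2 (d.DE x _ u.2)⟩
        map_one' := Subtype.ext (by show (1 : P) * D x 1 = 1; rw [hone, mul_one])
        map_mul' := fun u v => Subtype.ext (by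
          show (u.1 * v.1) * D x (u.1 * v.1) = (u.1 * D x u.1) * (v.1 * D x v.1)
          rw [d.Da x _ u.2 _ v.2]
          have e1 := h.E_comm v.2 (D x u.1)
          calc u.1 * v.1 * (D x u.1 * D x v.1) = u.1 * (v.1 * D x u.1) * D x v.1 := by group
            _ = u.1 * (D x u.1 * v.1) * D x v.1 := by rw [e1]
            _ = _ := by group) }
    have hfinj : Function.Injective f := by
      rw [injective_iff_map_eq_one]
      rintro ⟨u, hu⟩ hfu
      have h1 : u * D x u = 1 := congrArg Subtype.val hfu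
      by_contra hne
      refine hcon u hu (fun h2 => hne (Subtype.ext h2)) ?_
      rw [← h.E_inv hu]
      have := eq_inv_of_mul_eq_one_right h1
      rw [h.E_inv hu] at this ⊢
      exact this
    have hfsurj := Finite.injective_iff_surjective.1 hfinj
    have hxE : x * x ∈ h.E := by rw [h.mem_E, ← Four.pow4]; exact h4
    obtain ⟨⟨u, hu⟩, hfu⟩ := hfsurj ⟨x * x, hxE⟩
    have h1 : u * D x u = x * x := congrArg Subtype.val hfu
    obtain ⟨a, ha, hau⟩ := H.exists_sq hu
    apply hxA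
    have h2 : x * a ∈ h.E := by
      rw [h.mem_E]
      have h3 : x * a * (x * a) = (x * x) * (a * cm a x) * a := by unfold Suz2.cm; group
      have h4' : cm a x * a = a * cm a x := h.E_comm (H.cmE ha x) a
      have h5 : (x * x) * (a * cm a x) * a = (x * x) * ((a * a) * cm a x) := by
        calc (x * x) * (a * cm a x) * a = (x * x) * (a * (cm a x * a)) := by group
          _ = (x * x) * (a * (a * cm a x)) := by rw [h4']
          _ = _ := by group
      rw [h3, h5, ← d.Dw a ha x, hau, h1]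
      exact h.mem_E.1 hxE
    have h3 := A.mul_mem (H.E_le h2) (A.inv_mem ha)
    rwa [mul_inv_cancel_right] at h3
  obtain ⟨u, hu, hu1, hDu⟩ := hex
  refine ⟨π u, fun h0 => hu1 (c.ker u hu h0), ?_⟩
  rw [T_pi c d x hu, hDu]

/-- Some operator is a multiple of a single automorphism. -/
theorem exists_single (hne : A ≠ ⊤) : ∃ (σ : F ≃+* F) (x0 : P) (c0 : F), c0 ≠ 0 ∧ ∀ t, T x0 t = c0 * σ t := by
  have hfF := c.fin
  obtain ⟨y, -, hyA⟩ := SetLike.exists_of_lt (lt_top_iff_ne_top.2 hne)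
  let 𝒟 : AddSubgroup (F →+ F) :=
    { carrier := {S | ∃ y, T y = S}
      add_mem' := by
        rintro _ _ ⟨y, rfl⟩ ⟨z, rfl⟩
        exact ⟨y * z, T_mul c d y z⟩
      zero_mem' := ⟨1, T_one c d⟩
      neg_mem' := by
        rintro _ ⟨y, rfl⟩
        refine ⟨y, ?_⟩
        ext t
        show T y t = -(T y t)
        exact (CharTwo.neg_eq _).symm }
  obtain ⟨σ, c0, hc0, S, ⟨x0, rfl⟩, hS⟩ := single c.lam0 c.n4 𝒟 (by
      rintro _ ⟨y, rfl⟩ S hS
      refine ⟨κ • y, ?_⟩
      ext t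
      have h1 : t = lam * (lam⁻¹ * t) := by rw [mul_inv_cancel_left₀ c.lam0]
      have h2 := T_smul c d κ (a := lam) (θ := RingEquiv.refl F) (fun x hx => c.kap x hx) y (lam⁻¹ * t)
      have h3 : T (κ • y) (lam * (lam⁻¹ * t)) = lam * T y (lam⁻¹ * t) := h2
      rw [h1, h3, hS])
    (T := T y) ⟨y, rfl⟩ (fun h0 => hyA (T_zero c d h0))
  exact ⟨σ, x0, c0, hc0, hS⟩

end TD

end Cfsg.Agent.Suz3
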